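import Cfsg.Prelude.Def_GeometricClasses
import Cfsg.Agent.Lib.Elusive.SLConj

/-!
Conjugacy of elements of prime order `r` when the field generates the `r`-th roots of unity in degree `r - 1`.
-/

set_option autoImplicit false

namespace Cfsg.Agent.Lib.SympFour

open Module Polynomial Cfsg.Agent.Lib.Elusive

universe u

variable {F : Type u} [Field F]

theorem cyclo_irreducible [Finite F] {p : ℕ} [Fact p.Prime] [CharP F p] {r : ℕ} [hr : Fact r.Prime] (hrp : r ≠ p)
    (hord : orderOf (Nat.card F : ZMod r) = r - 1) : Irreducible (cyclotomic r F) := by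
  classical
  have hdeg : (cyclotomic r F).natDegree = r - 1 := by rw [natDegree_cyclotomic, Nat.totient_prime hr.out]
  have hne : cyclotomic r F ≠ 0 := cyclotomic_ne_zero r F
  have hnu : ¬ IsUnit (cyclotomic r F) := fun h => by
    have := natDegree_eq_zero_of_isUnit h
    have := hr.out.two_le
    omega
  obtain ⟨g, hg⟩ := UniqueFactorizationMonoid.exists_mem_normalizedFactors hne hnu
  obtain ⟨hm, hirr, hgd⟩ := factor_cyclotomic (r := r) hrp hg
  have heq : cyclotomic r F = g :=
    eq_of_monic_of_dvd_of_natDegree_le hm (cyclotomic.monic r F)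
      (UniqueFactorizationMonoid.dvd_of_mem_normalizedFactors hg) (by omega)
  rw [heq]; exact hirr

variable {V : Type*} [AddCommGroup V] [Module F V] [FiniteDimensional F V]

theorem aeval_restrict {y : Module.End F V} {R : Submodule F V} (hR : ∀ v ∈ R, y v ∈ R) (f : F[X]) (v : R) :
    ((aeval (y.restrict hR : Module.End F R) f v : R) : V) = aeval y f (v : V) := by
  induction f using Polynomial.induction_on' generalizing v with
  | add p q hp hq => simp [hp, hq]
  | monomial n a =>
    simp only [aeval_monomial, Module.End.mul_apply, Module.algebraMap_end_apply]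
    rw [SetLike.val_smul]
    congr 1
    induction n generalizing v with
    | zero => simp
    | succ n ih =>
      rw [pow_succ, pow_succ, Module.End.mul_apply, Module.End.mul_apply, ih]
      rfl

/-- Fixed space and its complement. -/
theorem split_prime [Finite F] {p : ℕ} [Fact p.Prime] [CharP F p] {r : ℕ} [hr : Fact r.Prime] (hrp : r ≠ p)
    (hord : orderOf (Nat.card F : ZMod r) = r - 1) (y : Module.End F V) (hy : y ^ r = 1) :
    ∃ (R : Submodule F V) (hR : Inv y R), IsCompl (LinearMap.ker (y - 1)) R ∧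
      aeval (y.restrict hR : Module.End F R) (cyclotomic r F) = 0 ∧ r - 1 ∣ finrank F R := by
  have hrF : (r : F) ≠ 0 := fun h =>
    hrp ((Nat.prime_dvd_prime_iff_eq Fact.out hr.out).1 ((CharP.cast_eq_zero_iff F p r).1 h)).symm
  set C := LinearMap.ker (y - 1) with hCdef
  have hC : ∀ v, v ∈ C ↔ y v = v := fun v => by simp [C, sub_eq_zero]
  have hCinv : Inv y C := fun v hv => by rw [(hC v).1 hv]; exact hv
  have hyv : ∀ v, (y ^ r) v = (1 : F) • v := fun v => by rw [hy, one_smul]; rfl
  obtain ⟨R, hR, hCR⟩ := exists_invariant_compl (one_ne_zero (α := F)) hrF hyv hCinv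
  have hfix : ∀ v ∈ R, y v = v → v = 0 := fun v hv h =>
    (Submodule.mem_bot F).1 (hCR.disjoint.eq_bot ▸ ⟨(hC v).2 h, hv⟩)
  refine ⟨R, hR, hCR, LinearMap.ext fun v => Subtype.ext ?_, ?_⟩
  · refine (aeval_restrict hR _ v).trans ?_
    show _ = (0 : V)
    refine hfix _ ((Inv.aeval hR _) _ v.2) ?_
    have h : aeval y ((X - 1 : F[X]) * cyclotomic r F) (v : V) = 0 := by
      rw [mul_comm, cyclotomic_prime_mul_X_sub_one, map_sub, map_pow, aeval_X, map_one, hy, sub_self,
        LinearMap.zero_apply]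
    rw [map_mul, Module.End.mul_apply, map_sub, aeval_X, map_one, LinearMap.sub_apply, Module.End.one_apply,
      sub_eq_zero] at h
    exact h
  · rw [← hord]
    exact orderOf_dvd_finrank (fun v => by rw [hy]; rfl) hR hfix

variable {V' : Type*} [AddCommGroup V'] [Module F V'] [FiniteDimensional F V']

/-- Equal fixed dimensions give conjugacy, and the centralizer has every determinant. -/
theorem conj_prime [Finite F] {p : ℕ} [Fact p.Prime] [CharP F p] {r : ℕ} [hr : Fact r.Prime] (hrp : r ≠ p)
    (hord : orderOf (Nat.card F : ZMod r) = r - 1) (y : Module.End F V) (z : Module.End F V') (hy : y ^ r = 1)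
    (hz : z ^ r = 1) (hy1 : y ≠ 1) (hdim : finrank F V = finrank F V')
    (hk : finrank F (LinearMap.ker (y - 1)) = finrank F (LinearMap.ker (z - 1))) :
    (∃ T : V ≃ₗ[F] V', ∀ v, T (y v) = z (T v)) ∧
      ∀ δ : F, δ ≠ 0 → ∃ C : Module.End F V, (∀ v, C (y v) = y (C v)) ∧ LinearMap.det C = δ := by
  obtain ⟨R, hR, hCR, hRp, -⟩ := split_prime hrp hord y hy
  obtain ⟨S, hS, hDS, hSp, -⟩ := split_prime hrp hord z hz
  have hirr := cyclo_irreducible (F := F) hrp hord
  have hd1 := Submodule.finrank_add_eq_of_isCompl hCR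
  have hd2 := Submodule.finrank_add_eq_of_isCompl hDS
  have hyC : ∀ v : LinearMap.ker (y - 1), y (v : V) = v := fun v =>
    sub_eq_zero.1 (show y (v : V) - v = 0 from LinearMap.mem_ker.1 v.2)
  have hzC : ∀ v : LinearMap.ker (z - 1), z (v : V') = v := fun v =>
    sub_eq_zero.1 (show z (v : V') - v = 0 from LinearMap.mem_ker.1 v.2)
  refine ⟨?_, fun δ hδ => ?_⟩
  · obtain ⟨T₂, hT₂⟩ := conj_irreducible hirr hRp hSp (by omega)
    let T₁ := LinearEquiv.ofFinrankEq (R := F) (LinearMap.ker (y - 1)) (LinearMap.ker (z - 1)) hk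
    refine ⟨((Submodule.prodEquivOfIsCompl _ _ hCR).symm.trans (T₁.prodCongr T₂)).trans
      (Submodule.prodEquivOfIsCompl _ _ hDS), fun v => ?_⟩
    obtain ⟨⟨a, b⟩, rfl⟩ := (Submodule.prodEquivOfIsCompl _ _ hCR).surjective v
    have e : y (Submodule.prodEquivOfIsCompl _ _ hCR (a, b)) =
        Submodule.prodEquivOfIsCompl _ _ hCR (a, y.restrict hR b) := by
      simp [hyC]
      rfl
    rw [e]
    simp only [LinearEquiv.trans_apply, LinearEquiv.symm_apply_apply, LinearEquiv.prodCongr_apply, hT₂]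
    simp [hzC]
    rfl
  · have hpos : 0 < finrank F R := by
      by_contra h
      have hbot : R = ⊥ := Submodule.finrank_eq_zero.1 (by omega)
      apply hy1
      have htop : LinearMap.ker (y - 1) = ⊤ := by
        have := hCR.sup_eq_top
        rwa [hbot, sup_bot_eq] at this
      exact sub_eq_zero.1 (LinearMap.ker_eq_top.1 htop)
    obtain ⟨C₀, hC₀, hdet⟩ := cent_irreducible hirr hRp hpos hδ
    let e := Submodule.prodEquivOfIsCompl _ _ hCR
    refine ⟨e.conj ((LinearMap.id : LinearMap.ker (y - 1) →ₗ[F] LinearMap.ker (y - 1)).prodMap C₀), fun v => ?_, ?_⟩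
    · obtain ⟨⟨a, b⟩, rfl⟩ := e.surjective v
      have he : y (e (a, b)) = e (a, y.restrict hR b) := by
        simp [e, hyC]
        rfl
      rw [he]
      simp only [LinearEquiv.conj_apply, LinearMap.comp_apply, LinearEquiv.coe_coe, LinearMap.prodMap_apply,
        LinearEquiv.symm_apply_apply, LinearMap.id_apply, hC₀]
      simp [e, hyC]
      rfl
    · rw [LinearEquiv.conj_apply, LinearMap.comp_assoc, LinearMap.det_conj, LinearMap.det_prodMap,
        LinearMap.det_id, one_mul, hdet]

/-- Conjugacy in the special linear group from linear conjugacy. -/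
theorem sl_conj {n : ℕ} (x m : GL (Fin n) F) (hx : x ∈ Cfsg.Geo.specialLinear (Fin n) F)
    (T : (Fin n → F) ≃ₗ[F] (Fin n → F))
    (hT : ∀ v, T (Matrix.toLin' (m : Matrix (Fin n) (Fin n) F) v) =
      Matrix.toLin' (x : Matrix (Fin n) (Fin n) F) (T v))
    (hcent : ∀ δ : F, δ ≠ 0 → ∃ C : Module.End F (Fin n → F),
      (∀ v, C (Matrix.toLin' (m : Matrix (Fin n) (Fin n) F) v) =
        Matrix.toLin' (m : Matrix (Fin n) (Fin n) F) (C v)) ∧ LinearMap.det C = δ) :
    ∃ g ∈ Cfsg.Geo.specialLinear (Fin n) F, g⁻¹ * x * g = m := by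
  have hdet : (x : Matrix (Fin n) (Fin n) F).det = 1 := by
    rw [← Matrix.GeneralLinearGroup.val_det_apply, MonoidHom.mem_ker.1 hx, Units.val_one]
  obtain ⟨P, hP⟩ := exists_sl_conj (A := ⟨_, hdet⟩) T hT hcent
  refine ⟨Matrix.SpecialLinearGroup.toGL P, ?_, Units.ext (Matrix.toLin'.injective (Eq.trans ?_ hP))⟩
  · rw [Cfsg.Geo.specialLinear, MonoidHom.mem_ker]
    exact Units.ext P.det_coe
  · rw [← map_inv, Units.val_mul, Units.val_mul]
    rfl

end Cfsg.Agent.Lib.SympFour
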