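import Cfsg.Agent.Lib.SympFour.Std

/-!
Explicit elements of order two, three and five normalizing the standard group.
-/

set_option autoImplicit false

namespace Cfsg.Agent.Lib.SympFour

open Matrix

universe u

variable {F : Type u} [Field F]

local notation "M4" => Matrix (Fin 4) (Fin 4) F
local notation "G4" => GL (Fin 4) F

/-- `R` consists of the standard matrices times fourth roots of unity. -/
def IsStd (R : Subgroup (GL (Fin 4) F)) : Prop :=
  ∀ u : GL (Fin 4) F, u ∈ R ↔ ∃ (c : F) (k : Fin 16), c ^ 4 = 1 ∧ (u : Matrix (Fin 4) (Fin 4) F) = c • pm k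

theorem cocy_four (k l : Fin 16) : (cocy k l : F) ^ 4 = 1 := by
  rw [show (cocy k l : F) ^ 4 = ((cocy k l : F) * cocy k l) * ((cocy k l : F) * cocy k l) by ring, cocy_sq, one_mul]

/-- Carrying the four generators into the group is enough. -/
theorem mem_normalizer [Finite F] {R : Subgroup (GL (Fin 4) F)} (hR : IsStd R) (g : GL (Fin 4) F) (lam : F) (M : M4)
    (hgM : (g : M4) = lam • M)
    (hg : ∀ e ∈ gens, ∃ (c : F) (l : Fin 16), c ^ 4 = 1 ∧ M * pm e = c • (pm l * M)) :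
    g ∈ Subgroup.normalizer (R : Set (GL (Fin 4) F)) := by
  let Q : M4 → Prop := fun N => ∃ (c : F) (l : Fin 16), c ^ 4 = 1 ∧ M * N = c • (pm l * M)
  have hone : Q 1 := ⟨1, 0, one_pow 4, by rw [pm_zero, one_smul, one_mul, mul_one]⟩
  have hmul : ∀ A B, Q A → Q B → Q (A * B) := by
    rintro A B ⟨c, l, hc, hA⟩ ⟨d, m, hd, hB⟩
    refine ⟨c * d * (cocy l m : F), l ^^^ m, by rw [mul_pow, mul_pow, hc, hd, cocy_four, one_mul, one_mul], ?_⟩
    rw [← mul_assoc, hA, Matrix.smul_mul, Matrix.mul_assoc, hB, Matrix.mul_smul, ← Matrix.mul_assoc, pm_mul,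
      Matrix.smul_mul, smul_smul, smul_smul, mul_assoc]
  haveI := Fintype.ofFinite F
  have hall : ∀ k, Q (pm k) := by
    intro k
    obtain ⟨c, hc, hk⟩ := pm_generate (F := F) k
    have hite : ∀ (q : Prop) [Decidable q], ∀ e ∈ gens, Q (if q then pm e else 1) := fun q _ e he => by
      split_ifs
      · exact hg e he
      · exact hone
    obtain ⟨d, l, hd, h⟩ := hmul _ _ (hmul _ _ (hmul _ _ (hite (bit k 0 = 1) 1 (by decide))
      (hite (bit k 1 = 1) 2 (by decide))) (hite (bit k 2 = 1) 4 (by decide))) (hite (bit k 3 = 1) 8 (by decide))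
    refine ⟨c * d, l, by rw [mul_pow, hd, show c ^ 4 = (c * c) * (c * c) by ring, hc, one_mul, one_mul], ?_⟩
    rw [hk, Matrix.mul_smul, h, smul_smul]
  have hinto : ∀ u ∈ R, g * u * g⁻¹ ∈ R := by
    intro u hu
    obtain ⟨a, k, ha, hu⟩ := (hR u).1 hu
    obtain ⟨c, l, hc, h⟩ := hall k
    refine (hR _).2 ⟨a * c, l, by rw [mul_pow, ha, hc, one_mul], ?_⟩
    have e : (g : M4) * (u : M4) = (a * c) • (pm l * (g : M4)) := by
      rw [hgM, hu, Matrix.smul_mul, Matrix.mul_smul, h, Matrix.mul_smul, smul_smul, smul_smul, smul_smul,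
        show lam * a * c = a * c * lam by ring]
    rw [Units.val_mul, Units.val_mul, e, Matrix.smul_mul, Matrix.mul_assoc, Units.mul_inv, mul_one]
  rw [Subgroup.mem_normalizer_iff]
  refine fun u => ⟨hinto u, fun h => ?_⟩
  haveI : Finite (R.map (MulAut.conj g).toMonoidHom : Subgroup (GL (Fin 4) F)) := inferInstance
  have hle : R.map (MulAut.conj g).toMonoidHom ≤ R := by
    rintro _ ⟨w, hw, rfl⟩; exact hinto w hw
  have heq := Subgroup.eq_of_le_of_card_ge hle (by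
    rw [← Nat.card_congr (R.equivMapOfInjective _ (MulAut.conj g).injective).toEquiv])
  rw [← heq] at h
  obtain ⟨w, hw, he⟩ := h
  rwa [← (MulAut.conj g).injective he]

theorem scalar_mem [Finite F] {R : Subgroup (GL (Fin 4) F)} (hR : IsStd R) (g : GL (Fin 4) F) (lam : F)
    (hg : (g : M4) = lam • 1) : g ∈ Subgroup.normalizer (R : Set (GL (Fin 4) F)) :=
  mem_normalizer hR g lam 1 hg fun e _ => ⟨1, e, one_pow 4, by rw [one_smul, one_mul, mul_one]⟩

/-- The diagonal matrix with one sign. -/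
def oneSign : Matrix (Fin 4) (Fin 4) F := !![1, 0, 0, 0; 0, 1, 0, 0; 0, 0, 1, 0; 0, 0, 0, -1]

/-- The first half-mixing matrix. -/
def mixH : Matrix (Fin 4) (Fin 4) F := !![1, 0, 1, 0; 0, 1, 0, 1; 1, 0, -1, 0; 0, 1, 0, -1]

/-- The phase matrix. -/
def phase (I : F) : Matrix (Fin 4) (Fin 4) F := !![1, 0, 0, 0; 0, 1, 0, 0; 0, 0, I, 0; 0, 0, 0, I]

/-- A permutation matrix of order three. -/
def cyc : Matrix (Fin 4) (Fin 4) F := !![1, 0, 0, 0; 0, 0, 1, 0; 0, 0, 0, 1; 0, 1, 0, 0]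

/-- An element of order three without fixed vectors. -/
def three (I h : F) : Matrix (Fin 4) (Fin 4) F :=
  !![h * (-1 + I), 0, h * (-1 + I), 0; 0, h * (-1 + I), 0, h * (-1 + I);
    h * (1 + I), 0, h * (-1 - I), 0; 0, h * (1 + I), 0, h * (-1 - I)]

/-- An element of order five modulo scalars. -/
def five (I : F) : Matrix (Fin 4) (Fin 4) F := !![1, 0, 0, I; 0, I, 1, 0; 1, 0, 0, -I; 0, -I, 1, 0]

theorem five_eq (I : F) : mixH * phase I * cyc = five I := by
  ext i j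
  fin_cases i <;> fin_cases j <;>
    simp [mixH, phase, cyc, five, Matrix.mul_apply, Fin.sum_univ_four]

theorem four_gens {Q : Fin 16 → Prop} (h1 : Q 1) (h2 : Q 2) (h4 : Q 4) (h8 : Q 8) : ∀ e ∈ gens, Q e := by
  intro e he
  simp [gens] at he
  rcases he with rfl | rfl | rfl | rfl <;> assumption

theorem oneSign_rel : ∀ e ∈ gens, ∃ (c : F) (l : Fin 16), c ^ 4 = 1 ∧ (oneSign : M4) * pm e = c • (pm l * oneSign) := by
  refine four_gens ⟨1, 1, one_pow 4, ?_⟩ ⟨1, 6, one_pow 4, ?_⟩ ⟨1, 4, one_pow 4, ?_⟩ ⟨1, 9, one_pow 4, ?_⟩ <;>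
    ext i j <;> fin_cases i <;> fin_cases j <;>
    simp [oneSign, pm, zm, sgnOf, flipOf, bit, Matrix.mul_apply, Fin.sum_univ_four]

theorem mixH_rel : ∀ e ∈ gens, ∃ (c : F) (l : Fin 16), c ^ 4 = 1 ∧ (mixH : M4) * pm e = c • (pm l * mixH) := by
  refine four_gens ⟨1, 2, one_pow 4, ?_⟩ ⟨1, 1, one_pow 4, ?_⟩ ⟨1, 4, one_pow 4, ?_⟩ ⟨1, 8, one_pow 4, ?_⟩ <;>
    ext i j <;> fin_cases i <;> fin_cases j <;>
    simp [mixH, pm, zm, sgnOf, flipOf, bit, Matrix.mul_apply, Fin.sum_univ_four]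

theorem phase_rel {I : F} (hI : I * I = -1) :
    ∀ e ∈ gens, ∃ (c : F) (l : Fin 16), c ^ 4 = 1 ∧ phase I * pm e = c • (pm l * phase I) := by
  refine four_gens ⟨1, 1, one_pow 4, ?_⟩ ⟨-I, 3, by linear_combination (I * I - 1) * hI, ?_⟩
    ⟨1, 4, one_pow 4, ?_⟩ ⟨1, 8, one_pow 4, ?_⟩ <;>
    ext i j <;> fin_cases i <;> fin_cases j <;>
    simp [phase, pm, zm, sgnOf, flipOf, bit, Matrix.mul_apply, Fin.sum_univ_four, hI]

theorem cyc_rel : ∀ e ∈ gens, ∃ (c : F) (l : Fin 16), c ^ 4 = 1 ∧ (cyc : M4) * pm e = c • (pm l * cyc) := by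
  refine four_gens ⟨1, 5, one_pow 4, ?_⟩ ⟨1, 8, one_pow 4, ?_⟩ ⟨1, 1, one_pow 4, ?_⟩ ⟨1, 10, one_pow 4, ?_⟩ <;>
    ext i j <;> fin_cases i <;> fin_cases j <;>
    simp [cyc, pm, zm, sgnOf, flipOf, bit, Matrix.mul_apply, Fin.sum_univ_four]

theorem three_rel {I : F} (hI : I * I = -1) (h : F) :
    ∀ e ∈ gens, ∃ (c : F) (l : Fin 16), c ^ 4 = 1 ∧ three I h * pm e = c • (pm l * three I h) := by
  refine four_gens ⟨I, 3, by linear_combination (I * I - 1) * hI, ?_⟩ ⟨1, 1, one_pow 4, ?_⟩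
    ⟨1, 4, one_pow 4, ?_⟩ ⟨1, 8, one_pow 4, ?_⟩ <;>
    ext i j <;> fin_cases i <;> fin_cases j <;>
    simp [three, pm, zm, sgnOf, flipOf, bit, Matrix.mul_apply, Fin.sum_univ_four] <;> grind

theorem sign_rel : ∀ e ∈ gens, ∃ (c : F) (l : Fin 16), c ^ 4 = 1 ∧ (pm 1 : M4) * pm e = c • (pm l * pm 1) :=
  fun e _ => ⟨(-1) ^ form 1 e, e, by rw [← pow_mul, mul_comm, pow_mul]; norm_num, pm_comm 1 e⟩

theorem three_quad {I h : F} (hI : I * I = -1) (hh : 2 * h = 1) :
    three I h * three I h + three I h + 1 = 0 := by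
  ext i j
  fin_cases i <;> fin_cases j <;>
    simp [three, Matrix.mul_apply, Fin.sum_univ_four] <;> grind

theorem cyc_cube : (cyc : M4) ^ 3 = 1 := by
  ext i j
  fin_cases i <;> fin_cases j <;> simp [cyc, pow_succ, Matrix.mul_apply, Fin.sum_univ_four]

theorem five_pow {I : F} (hI : I * I = -1) : five I ^ 5 = (4 * (1 + I)) • (1 : M4) := by
  have h2 : five I * five I =
      !![1, 1, I, I; 1, -1, I, -I; 1, -1, -I, I; 1, 1, -I, -I] := by
    ext i j
    fin_cases i <;> fin_cases j <;> simp [five, Matrix.mul_apply, Fin.sum_univ_four, hI]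
  rw [show five I ^ 5 = five I * five I * (five I * five I) * five I by simp [pow_succ, Matrix.mul_assoc], h2]
  ext i j
  fin_cases i <;> fin_cases j <;>
    simp [five, Matrix.mul_apply, Fin.sum_univ_four] <;> grind

end Cfsg.Agent.Lib.SympFour
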