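import Cfsg.Agent.Lib.SympFour.Models

/-!
Elements of odd prime order normalizing the standard group have small centralizers.
-/

set_option autoImplicit false

namespace Cfsg.Agent.Lib.SympFour

open Matrix

universe u

variable {F : Type u} [Field F] [Fintype F]

local notation "M4" => Matrix (Fin 4) (Fin 4) F

theorem pm_smul_inj (h2 : (2 : F) ≠ 0) {c c' : F} (hc : c ≠ 0) {k l : Fin 16}
    (h : c • (pm k : M4) = c' • pm l) : k = l := by
  by_contra hkl
  have h' := congrArg (coord k) h
  simp only [coord_eq_trace, Matrix.mul_smul, Matrix.trace_smul, smul_eq_mul] at h'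
  rw [← coord_eq_trace, ← coord_eq_trace, coord_pm, coord_pm, if_pos rfl, if_neg hkl, mul_zero] at h'
  have h4 : (4 : F) ≠ 0 := by rw [show (4 : F) = 2 * 2 by norm_num]; exact mul_ne_zero h2 h2
  have hcc : (cocy k k : F) ≠ 0 := fun e => by simpa [e] using cocy_sq (F := F) k k
  exact mul_ne_zero hc (mul_ne_zero h4 hcc) h'

theorem iter_eq (L : Fin 16 → Fin 16) : ∀ (m : ℕ) k, iter L m k = L^[m] k
  | 0, _ => rfl
  | m + 1, k => by rw [iter, iter_eq L m, Function.iterate_succ_apply']

/-- The matrices commuting with `M`. -/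
def commSet (M : Matrix (Fin 4) (Fin 4) F) : Set (Matrix (Fin 4) (Fin 4) F) := {N | M * N = N * M}

/-- An element of odd prime order in the normalizer is scalar or has a small centralizer. -/
theorem normal_odd {R : Subgroup (GL (Fin 4) F)} (hR : IsStd R) (h2 : (2 : F) ≠ 0) {r : ℕ} [hr : Fact r.Prime]
    (hr2 : r ≠ 2) (y : GL (Fin 4) F) (hy : y ∈ Subgroup.normalizer (R : Set (GL (Fin 4) F))) (hyr : y ^ r = 1) :
    (∃ z : F, (y : M4) = z • 1) ∨
      (r = 3 ∧ Nat.card (commSet (y : M4)) ≤ Fintype.card F ^ 8) ∨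
      (r = 5 ∧ Nat.card (commSet (y : M4)) ≤ Fintype.card F ^ 4) := by
  classical
  have hr' : r.Prime := hr.out
  have hmove : ∀ k, ∃ (c : F) (l : Fin 16), c ^ 4 = 1 ∧ (y : M4) * pm k = c • (pm l * (y : M4)) := by
    intro k
    have hu : IsUnit (pm k : M4) := by
      refine IsUnit.of_mul_eq_one ((cocy k k : F) • pm k) ?_
      rw [Matrix.mul_smul, pm_sq, smul_smul, cocy_sq, one_smul]
    have hk : hu.unit ∈ R := (hR _).2 ⟨1, k, one_pow 4, by rw [one_smul]; rfl⟩
    obtain ⟨c, l, hc, h⟩ := (hR _).1 ((Subgroup.mem_normalizer_iff.1 hy _).1 hk)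
    refine ⟨c, l, hc, ?_⟩
    rw [← Matrix.smul_mul, ← h, Units.val_mul, Units.val_mul, Units.inv_mul_cancel_right, IsUnit.unit_spec]
  choose c L hc hL using hmove
  have hc0 : ∀ k, c k ≠ 0 := fun k h => by simpa [h] using hc k
  have huy : ∀ {A B : M4}, A * (y : M4) = B * (y : M4) → A = B := fun h => y.isUnit.mul_left_injective h
  have huniq : ∀ {k l : Fin 16} {d : F}, (y : M4) * pm k = d • (pm l * (y : M4)) → L k = l := by
    intro k l d h
    rw [hL k, ← Matrix.smul_mul, ← Matrix.smul_mul] at h
    exact pm_smul_inj h2 (hc0 k) (huy h)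
  have hmul : ∀ k l, L (k ^^^ l) = L k ^^^ L l := by
    intro k l
    refine huniq (d := (cocy k l : F) * (c k * c l * (cocy (L k) (L l) : F))) ?_
    rw [show (pm (k ^^^ l) : M4) = (cocy k l : F) • (pm k * pm l) by rw [pm_mul, smul_smul, cocy_sq, one_smul],
      Matrix.mul_smul, ← mul_assoc, hL k, Matrix.smul_mul, mul_assoc, hL l, Matrix.mul_smul, ← mul_assoc, pm_mul,
      Matrix.smul_mul, smul_smul, smul_smul, smul_smul]
    congr 1
    ring
  have hL0 : L 0 = 0 := huniq (d := 1) (by rw [pm_zero, one_mul, mul_one, one_smul])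
  have hite : ∀ (q : Prop) [Decidable q] (a : Fin 16), L (if q then a else 0) = if q then L a else 0 := by
    intro q _ a; split_ifs
    · rfl
    · exact hL0
  have hlin : L = lin (L 1) (L 2) (L 4) (L 8) := by
    funext k
    conv_lhs => rw [← decomp k]
    unfold lin
    rw [hmul, hmul, hmul, hite, hite, hite, hite]
  have hform : ∀ k l, form (L k) (L l) = form k l := by
    intro k l
    have e1 : (y : M4) * (pm k * pm l) = (c k * c l) • (pm (L k) * pm (L l) * (y : M4)) := by
      rw [← mul_assoc, hL k, Matrix.smul_mul, mul_assoc, hL l, Matrix.mul_smul, ← mul_assoc, smul_smul]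
    have e2 : (y : M4) * (pm l * pm k) = (c k * c l) • (pm (L l) * pm (L k) * (y : M4)) := by
      rw [← mul_assoc, hL l, Matrix.smul_mul, mul_assoc, hL k, Matrix.mul_smul, ← mul_assoc, smul_smul, mul_comm (c l)]
    rw [pm_comm k l, Matrix.mul_smul, e2, pm_comm (L k) (L l), Matrix.smul_mul, smul_smul, smul_smul] at e1
    have hu : ∀ a, (pm a : M4) ≠ 0 := fun a z => by
      have := pm_sq (F := F) a
      rw [z, zero_mul] at this
      exact one_ne_zero (α := M4) (by
        rw [← one_smul F (1 : M4), ← cocy_sq (F := F) a a, mul_smul, ← this, smul_zero])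
    have hnz : (pm (L l) * pm (L k) * (y : M4) : M4) ≠ 0 := fun z => by
      rw [pm_mul, Matrix.smul_mul, smul_eq_zero] at z
      rcases z with z | z
      · simpa [z] using cocy_sq (F := F) (L l) (L k)
      · exact hu _ (huy (by rw [z, zero_mul]))
    have e3 : (-1 : F) ^ form k l = (-1) ^ form (L k) (L l) :=
      mul_right_cancel₀ (mul_ne_zero (hc0 k) (hc0 l)) ((smul_left_injective F hnz e1).trans (mul_comm _ _))
    have hne : (1 : F) ≠ -1 := fun e => h2 (by linear_combination e)
    rcases (cocy_swap k l).2.2 with a | a <;> rcases (cocy_swap (L k) (L l)).2.2 with b | b <;>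
      rw [a, b] at e3 ⊢ <;> simp at e3
    · exact absurd e3 hne
    · exact absurd e3.symm hne
  have hne0 : ∀ k, k ≠ 0 → L k ≠ 0 := by
    intro k hk h
    apply pm_ne_scalar hk h2 (c k)
    refine y.isUnit.mul_right_injective ?_
    show (y : M4) * pm k = (y : M4) * (c k • 1)
    rw [hL k, h, pm_zero, one_mul, Matrix.mul_smul, mul_one]
  have hpow : ∀ (m : ℕ) k, ∃ d : F, (y : M4) ^ m * pm k = d • (pm (iter L m k) * (y : M4) ^ m) := by
    intro m
    induction m with
    | zero => intro k; exact ⟨1, by simp [iter]⟩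
    | succ m ih =>
      intro k
      obtain ⟨d, hd⟩ := ih k
      refine ⟨d * c (iter L m k), ?_⟩
      rw [pow_succ', mul_assoc, hd, Matrix.mul_smul, ← mul_assoc, hL, Matrix.smul_mul, mul_assoc, smul_smul]
      rfl
  have hiter : ∀ k, iter L r k = k := by
    intro k
    obtain ⟨d, hd⟩ := hpow r k
    have hyr' : (y : M4) ^ r = 1 := by rw [← Units.val_pow_eq_pow_val, hyr, Units.val_one]
    rw [hyr', one_mul, mul_one] at hd
    exact (pm_smul_inj h2 (one_ne_zero (α := F)) (by rw [one_smul]; exact hd)).symm
  by_cases hid : ∀ e ∈ gens, L e = e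
  · left
    refine scalar_of_comm h2 fun e he => ?_
    have hy1 := hL e
    rw [hid e he] at hy1
    have hc2 : c e * c e = 1 := by
      have h := congrArg (fun N => N * (pm e : M4)) hy1
      simp only [mul_assoc, pm_sq, Matrix.smul_mul, Matrix.mul_smul, mul_one] at h
      rw [hy1, Matrix.mul_smul, ← mul_assoc, pm_sq, Matrix.smul_mul, one_mul, smul_smul, smul_smul] at h
      have hu : (y : M4) ≠ 0 := y.isUnit.ne_zero
      have h' := smul_left_injective F hu h
      have hcc : (cocy e e : F) ≠ 0 := fun z => by simpa [z] using cocy_sq (F := F) e e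
      exact (mul_right_cancel₀ hcc (h'.symm.trans (one_mul _).symm))
    have hcr : c e ^ r = 1 := by
      have key : ∀ m : ℕ, (y : M4) ^ m * pm e = (c e ^ m) • (pm e * (y : M4) ^ m) := by
        intro m
        induction m with
        | zero => simp
        | succ m ih =>
          rw [pow_succ' (y : M4), mul_assoc, ih, Matrix.mul_smul, ← mul_assoc, hy1, Matrix.smul_mul, smul_smul,
            ← pow_succ, mul_assoc]
      have h := key r
      rw [← Units.val_pow_eq_pow_val, hyr, Units.val_one, one_mul, mul_one] at h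
      have hu : (pm e : M4) ≠ 0 := fun z => by
        have := pm_sq (F := F) e
        rw [z, zero_mul] at this
        exact one_ne_zero (α := M4) (by
          rw [← one_smul F (1 : M4), ← cocy_sq (F := F) e e, mul_smul, ← this, smul_zero])
      exact (smul_left_injective F hu (by simpa using h)).symm
    obtain ⟨t, ht⟩ := hr'.odd_of_ne_two hr2
    rw [ht, pow_succ, pow_mul, pow_two, hc2, one_pow, one_mul] at hcr
    rw [hy1, hcr, one_smul]
  right
  have hchk : check L = true := by
    rw [hlin]
    refine check_all _ (hne0 1 (by decide)) _ ?_ _ (hne0 4 (by decide)) ?_ ?_ _ ?_ ?_ ?_ <;>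
      rw [hform] <;> decide
  have hgcd : ∀ m, idAt L m = true → ¬ r ∣ m → False := by
    intro m hm hdvd
    apply hid
    intro e he
    have h1 : Function.IsPeriodicPt L m e := by
      simp only [idAt, Bool.and_eq_true, beq_iff_eq] at hm
      simp [gens] at he
      show L^[m] e = e
      rw [← iter_eq]
      rcases he with rfl | rfl | rfl | rfl
      · exact hm.1.1.1
      · exact hm.1.1.2
      · exact hm.1.2
      · exact hm.2
    have h3 : Function.IsPeriodicPt L r e := by show L^[r] e = e; rw [← iter_eq]; exact hiter e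
    have h := h3.gcd h1
    rw [(hr'.coprime_iff_not_dvd.2 hdvd).gcd_eq_one] at h
    exact h
  simp only [check, Bool.and_eq_true, Bool.or_eq_true, Bool.not_eq_true', decide_eq_true_eq] at hchk
  obtain ⟨⟨h456, h3⟩, h5⟩ := hchk
  have hidr : idAt L r = true := by simp [idAt, hiter]
  have hbound : Nat.card (commSet (y : M4)) ≤ Fintype.card F ^ (reps L r).length := by
    let f : commSet (y : M4) → (Fin (reps L r).length → F) := fun N j => coord ((reps L r).get j) N.1
    have hstep : ∀ N : commSet (y : M4), ∀ k, coord k N.1 = c k * coord (L k) N.1 := by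
      intro N k
      have hN : (y : M4) * N.1 = N.1 * (y : M4) := N.2
      have hyy : ((y⁻¹ : GL (Fin 4) F) : M4) * (y : M4) = 1 := Units.inv_mul y
      have h : c k • (pm (L k) : M4) = (y : M4) * pm k * ((y⁻¹ : GL (Fin 4) F) : M4) := by
        rw [hL k, Matrix.smul_mul, Units.mul_inv_cancel_right]
      rw [coord_eq_trace, coord_eq_trace, show c k * Matrix.trace (pm (L k) * N.1) =
          Matrix.trace ((c k • (pm (L k) : M4)) * N.1) by rw [Matrix.smul_mul, Matrix.trace_smul, smul_eq_mul],
        h, mul_assoc ((y : M4) * pm k), Matrix.trace_mul_comm ((y : M4) * pm k), ← mul_assoc,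
        show ((y⁻¹ : GL (Fin 4) F) : M4) * N.1 * (y : M4) = N.1 by rw [mul_assoc, ← hN, ← mul_assoc, hyy, one_mul],
        Matrix.trace_mul_comm N.1]
    have hinj : Function.Injective f := by
      intro N N' hNN
      have hzero : ∀ k, coord k N.1 = coord k N'.1 := by
        intro k
        obtain ⟨l, hl, m, rfl⟩ := exists_min_orbit L hiter hr'.pos k
        induction m with
        | zero =>
          obtain ⟨j, hj⟩ := List.get_of_mem hl
          have h := congrFun hNN j
          simp only [f, hj] at h
          exact h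
        | succ m ih =>
          have h := ih
          rw [hstep N, hstep N'] at h
          exact mul_left_cancel₀ (hc0 _) h
      refine Subtype.ext (Matrix.ext fun i j => ?_)
      have h4 : (4 : F) ≠ 0 := by rw [show (4 : F) = 2 * 2 by norm_num]; exact mul_ne_zero h2 h2
      exact mul_left_cancel₀ h4 (by rw [← complete N.1 j i, ← complete N'.1 j i]; simp [hzero])
    refine le_trans (Nat.card_le_card_of_injective f hinj) (le_of_eq ?_)
    rw [Nat.card_fun, Nat.card_eq_fintype_card, Nat.card_eq_fintype_card, Fintype.card_fin]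
  have hn1 : idAt L 1 = false := by
    by_contra h
    exact hgcd 1 (by simpa using h) (fun h' => hr'.ne_one (Nat.dvd_one.1 h'))
  have hq : 1 ≤ Fintype.card F := Fintype.card_pos
  rcases eq_or_ne r 3 with rfl | hr3
  · refine Or.inl ⟨rfl, hbound.trans (Nat.pow_le_pow_right hq ?_)⟩
    rcases h3 with (h | h) | h
    · rw [hidr] at h; cases h
    · rw [hn1] at h; cases h
    · exact h
  rcases eq_or_ne r 5 with rfl | hr5
  · refine Or.inr ⟨rfl, hbound.trans (Nat.pow_le_pow_right hq ?_)⟩
    rcases h5 with (h | h) | h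
    · rw [hidr] at h; cases h
    · rw [hn1] at h; cases h
    · exact h
  exfalso
  have hbig : ∀ m, m ∈ [4, 5, 6] → ¬ r ∣ m := by
    intro m hm hd
    have hle := Nat.le_of_dvd (by simp at hm; omega) hd
    simp at hm
    have h2' := hr'.two_le
    rcases eq_or_ne r 4 with rfl | h4
    · exact absurd hr' (by norm_num)
    rcases eq_or_ne r 6 with rfl | h6
    · exact absurd hr' (by norm_num)
    omega
  rcases h456 with (h | h) | h
  · exact hgcd 4 h (hbig 4 (by simp))
  · exact hgcd 5 h (hbig 5 (by simp))
  · exact hgcd 6 h (hbig 6 (by simp))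

end Cfsg.Agent.Lib.SympFour
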