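import Mathlib

/-!
The sixteen signed permutation matrices spanning the four by four matrices, and the symplectic maps of their index set.
-/

set_option autoImplicit false

namespace Cfsg.Agent.Lib.SympFour

/-- The bit `b` of an index. -/
def bit (k : Fin 16) (b : ℕ) : ℕ := k.val / 2 ^ b % 2

/-- The displacement of the permutation part. -/
def flipOf (k : Fin 16) : Fin 4 := ⟨2 * bit k 1 + bit k 3, by unfold bit; omega⟩

/-- The sign in row `i`. -/
def sgnOf (k : Fin 16) (i : Fin 4) : ℤ :=
  (-1) ^ (bit k 0 * (i.val / 2) + bit k 2 * (i.val % 2))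

/-- The integral matrix with index `k`. -/
def zm (k : Fin 16) : Fin 4 → Fin 4 → ℤ := fun i j => if j = i ^^^ flipOf k then sgnOf k i else 0

/-- The alternating form on indices. -/
def form (k l : Fin 16) : ℕ := (bit k 0 * bit l 1 + bit k 1 * bit l 0 + bit k 2 * bit l 3 + bit k 3 * bit l 2) % 2

/-- The sign of a product. -/
def cocy (k l : Fin 16) : ℤ := (-1) ^ (bit k 1 * bit l 0 + bit k 3 * bit l 2)

theorem zm_mul : ∀ k l : Fin 16, ∀ i j : Fin 4,
    (zm k i 0 * zm l 0 j + zm k i 1 * zm l 1 j + zm k i 2 * zm l 2 j + zm k i 3 * zm l 3 j) =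
      cocy k l * zm (k ^^^ l) i j := by
  decide +kernel

theorem cocy_swap : ∀ k l : Fin 16, cocy k l = (-1) ^ form k l * cocy l k ∧ (cocy k l = 1 ∨ cocy k l = -1) ∧
    (form k l = 0 ∨ form k l = 1) := by
  decide +kernel

theorem zm_zero : ∀ i j : Fin 4, zm 0 i j = if i = j then 1 else 0 := by decide +kernel

theorem zm_trace : ∀ k : Fin 16, zm k 0 0 + zm k 1 1 + zm k 2 2 + zm k 3 3 = if k = 0 then 4 else 0 := by
  decide +kernel

theorem zm_complete : ∀ i j a b : Fin 4,
    ((List.finRange 16).map fun k => zm k i j * zm k a b).sum = if i = a ∧ j = b then 4 else 0 := by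
  decide +kernel

/-- The indices of the generators. -/
def gens : List (Fin 16) := [1, 2, 4, 8]

theorem form_eq_zero : ∀ k : Fin 16, (∀ e ∈ gens, form k e = 0) → k = 0 := by decide +kernel

theorem xor_assoc' : ∀ a b c : Fin 16, a ^^^ b ^^^ c = a ^^^ (b ^^^ c) := by decide +kernel

theorem xor_self' : ∀ a : Fin 16, a ^^^ a = 0 ∧ a ^^^ 0 = a ∧ (0 : Fin 16) ^^^ a = a := by decide +kernel

/-- The additive map with the given values at the generators. -/
def lin (a b c d : Fin 16) (k : Fin 16) : Fin 16 :=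
  (if bit k 0 = 1 then a else 0) ^^^ (if bit k 1 = 1 then b else 0) ^^^
    (if bit k 2 = 1 then c else 0) ^^^ (if bit k 3 = 1 then d else 0)

theorem decomp : ∀ k : Fin 16, lin 1 2 4 8 k = k := by decide +kernel

/-- `m` steps of a map. -/
def iter (L : Fin 16 → Fin 16) : ℕ → Fin 16 → Fin 16
  | 0, k => k
  | m + 1, k => L (iter L m k)

/-- Whether `m` steps give the identity on the generators. -/
def idAt (L : Fin 16 → Fin 16) (m : ℕ) : Bool :=
  iter L m 1 == 1 && iter L m 2 == 2 && iter L m 4 == 4 && iter L m 8 == 8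

/-- The indices smallest in their orbit of length `r`. -/
def reps (L : Fin 16 → Fin 16) (r : ℕ) : List (Fin 16) :=
  (List.finRange 16).filter fun k => (List.range r).all fun m => decide (k.val ≤ (iter L m k).val)

/-- The checks on one symplectic map. -/
def check (L : Fin 16 → Fin 16) : Bool :=
  (idAt L 4 || idAt L 5 || idAt L 6) &&
    (!(idAt L 3) || idAt L 1 || decide ((reps L 3).length ≤ 8)) &&
    (!(idAt L 5) || idAt L 1 || decide ((reps L 5).length ≤ 4))

theorem check_all : ∀ a : Fin 16, a ≠ 0 → ∀ b : Fin 16, form a b = 1 →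
    ∀ c : Fin 16, c ≠ 0 → form a c = 0 → form b c = 0 →
    ∀ d : Fin 16, form a d = 0 → form b d = 0 → form c d = 1 → check (lin a b c d) = true := by
  decide +kernel

theorem exists_min_orbit : ∀ (L : Fin 16 → Fin 16) {r : ℕ}, (∀ k, iter L r k = k) → 0 < r → ∀ k,
    ∃ l ∈ reps L r, ∃ m, iter L m l = k := by
  intro L r hr hr0 k
  have hadd : ∀ m n l, iter L (m + n) l = iter L m (iter L n l) := by
    intro m
    induction m with
    | zero => intro n l; rw [Nat.zero_add]; rfl
    | succ m ih => intro n l; rw [Nat.succ_add]; show L _ = L _; rw [ih]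
  obtain ⟨m, hm, hmin⟩ := Finset.exists_min_image (Finset.range r) (fun m => (iter L m k).val) ⟨0, by simpa⟩
  have hm' := Finset.mem_range.1 hm
  refine ⟨iter L m k, ?_, r - m, by rw [← hadd, Nat.sub_add_cancel hm'.le, hr]⟩
  refine List.mem_filter.2 ⟨List.mem_finRange _, List.all_eq_true.2 fun n hn => decide_eq_true ?_⟩
  rw [← hadd]
  have hq : ∀ q l, iter L (r * q) l = l := by
    intro q
    induction q with
    | zero => intro l; rfl
    | succ q ih => intro l; rw [Nat.mul_succ, hadd, hr, ih]
  have hmod : iter L (n + m) k = iter L ((n + m) % r) k := by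
    conv_lhs => rw [← Nat.mod_add_div (n + m) r, hadd, hq]
  rw [hmod]
  exact hmin _ (Finset.mem_range.2 (Nat.mod_lt _ hr0))

variable {F : Type*} [Field F]

/-- The matrix with index `k`. -/
def pm (k : Fin 16) : Matrix (Fin 4) (Fin 4) F := fun i j => (zm k i j : F)

theorem pm_mul (k l : Fin 16) : (pm k : Matrix (Fin 4) (Fin 4) F) * pm l = (cocy k l : F) • pm (k ^^^ l) := by
  ext i j
  rw [Matrix.mul_apply, Fin.sum_univ_four, Matrix.smul_apply, smul_eq_mul]
  simp only [pm]
  have h := congrArg (Int.cast : ℤ → F) (zm_mul k l i j)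
  push_cast at h
  exact h

theorem pm_zero : (pm 0 : Matrix (Fin 4) (Fin 4) F) = 1 := by
  ext i j
  show ((zm 0 i j : ℤ) : F) = _
  rw [zm_zero, Matrix.one_apply]
  split_ifs <;> simp

theorem cocy_sq (k l : Fin 16) : (cocy k l : F) * (cocy k l : F) = 1 := by
  rcases (cocy_swap k l).2.1 with h | h <;> rw [h] <;> simp

theorem pm_sq (k : Fin 16) : (pm k : Matrix (Fin 4) (Fin 4) F) * pm k = (cocy k k : F) • 1 := by
  rw [pm_mul, (xor_self' k).1, pm_zero]

theorem pm_comm (k l : Fin 16) :
    (pm k : Matrix (Fin 4) (Fin 4) F) * pm l = ((-1 : F) ^ form k l) • (pm l * pm k) := by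
  rw [pm_mul, pm_mul, smul_smul, (cocy_swap k l).1, Int.cast_mul, Int.cast_pow, Int.cast_neg, Int.cast_one]
  congr 2
  revert k l; decide +kernel

/-- The coordinate of index `k`, up to sign and a factor four. -/
def coord (k : Fin 16) (M : Matrix (Fin 4) (Fin 4) F) : F := ∑ a, ∑ b, (zm k a b : F) * M b a

theorem coord_eq_trace (k : Fin 16) (M : Matrix (Fin 4) (Fin 4) F) : coord k M = Matrix.trace (pm k * M) := by
  simp [coord, Matrix.trace, Matrix.mul_apply, pm]

theorem coord_pm (k l : Fin 16) : coord k (pm l : Matrix (Fin 4) (Fin 4) F) = if k = l then 4 * (cocy k k : F) else 0 := by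
  rw [coord_eq_trace, pm_mul, Matrix.trace_smul, Matrix.trace, Fin.sum_univ_four, smul_eq_mul]
  simp only [Matrix.diag, pm]
  rw [show ((zm (k ^^^ l) 0 0 : ℤ) : F) + (zm (k ^^^ l) 1 1 : ℤ) + (zm (k ^^^ l) 2 2 : ℤ) + (zm (k ^^^ l) 3 3 : ℤ) =
      (((if k ^^^ l = 0 then 4 else 0 : ℤ)) : F) by rw [← zm_trace]; push_cast; ring]
  by_cases h : k = l
  · subst h; rw [if_pos rfl, if_pos (xor_self' k).1]; push_cast; ring
  · have : k ^^^ l ≠ 0 := fun e => h (by
      rw [← (xor_self' k).2.1, ← (xor_self' l).1, ← xor_assoc', e, (xor_self' l).2.2])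
    rw [if_neg h, if_neg this]; simp

theorem complete (M : Matrix (Fin 4) (Fin 4) F) (i j : Fin 4) :
    ∑ k : Fin 16, (zm k i j : F) * coord k M = 4 * M j i := by
  simp only [coord, Finset.mul_sum]
  rw [Finset.sum_comm, Finset.sum_eq_single i ?_ (fun h => absurd (Finset.mem_univ _) h)]
  · rw [Finset.sum_comm, Finset.sum_eq_single j ?_ (fun h => absurd (Finset.mem_univ _) h)]
    · simp only [← mul_assoc, ← Finset.sum_mul]
      congr 1
      have h := zm_complete i j i j
      rw [if_pos ⟨rfl, rfl⟩, ← Fin.sum_univ_def] at h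
      have h' := congrArg (Int.cast : ℤ → F) h
      push_cast at h'
      exact h'
    · intro b _ hb
      simp only [← mul_assoc, ← Finset.sum_mul]
      refine mul_eq_zero_of_left ?_ _
      have h := zm_complete i j i b
      rw [if_neg (fun e => hb e.2.symm), ← Fin.sum_univ_def] at h
      have h' := congrArg (Int.cast : ℤ → F) h
      push_cast at h'
      exact h'
  · intro a _ ha
    rw [Finset.sum_comm]
    refine Finset.sum_eq_zero fun b _ => ?_
    simp only [← mul_assoc, ← Finset.sum_mul]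
    refine mul_eq_zero_of_left ?_ _
    have h := zm_complete i j a b
    rw [if_neg (fun e => ha e.1.symm), ← Fin.sum_univ_def] at h
    have h' := congrArg (Int.cast : ℤ → F) h
    push_cast at h'
    exact h'

end Cfsg.Agent.Lib.SympFour
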