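import Cfsg.Prelude.Def_GeometricClasses
import Cfsg.Agent.Lib.SympFour.Pauli

/-!
Coordinates for a four-dimensional 2-group of symplectic type with centre of order four.
-/

set_option autoImplicit false

namespace Cfsg.Agent.Lib.SympFour

open Cfsg.Geo Matrix

universe u

variable {F : Type u} [Field F]

local notation "M4" => Matrix (Fin 4) (Fin 4) F

theorem eq_of_fourth {I c : F} (hI : I * I = -1) (hc : c ^ 4 = 1) : c = 1 ∨ c = -1 ∨ c = I ∨ c = -I := by
  have h : (c - 1) * (c + 1) * ((c - I) * (c + I)) = 0 := by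
    linear_combination hc + (1 - c * c) * hI
  simp only [mul_eq_zero, sub_eq_zero, add_eq_zero_iff_eq_neg] at h
  tauto

theorem inf_center_ne_bot {G : Type*} [Group G] [Group.IsNilpotent G] {N : Subgroup G} [hn : N.Normal]
    (h : N ≠ ⊥) : N ⊓ Subgroup.center G ≠ ⊥ := by
  intro h0
  have key : ∀ n, N ⊓ Subgroup.upperCentralSeries G n = ⊥ := by
    intro n
    induction n with
    | zero => simp
    | succ n ih =>
      refine (Subgroup.eq_bot_iff_forall _).2 fun x ⟨hx, hx'⟩ => ?_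
      refine (Subgroup.eq_bot_iff_forall _).1 h0 x ⟨hx, Subgroup.mem_center_iff.2 fun g => ?_⟩
      have e : x * g * x⁻¹ * g⁻¹ = 1 := (Subgroup.eq_bot_iff_forall _).1 ih _
        ⟨by rw [show x * g * x⁻¹ * g⁻¹ = x * (g * x⁻¹ * g⁻¹) by group]
            exact mul_mem hx (hn.conj_mem _ (inv_mem hx) g),
         Subgroup.mem_upperCentralSeries_succ_iff.1 hx' g⟩
      rw [mul_inv_eq_one, mul_inv_eq_iff_eq_mul] at e
      exact e.symm
  obtain ⟨n, hn'⟩ := Group.IsNilpotent.nilpotent (G := G)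
  exact h (by simpa [hn'] using key n)

theorem cent_class_two {G : Type*} [Group G] [Group.IsNilpotent G]
    (habel : ∀ A : Subgroup G, A.Characteristic → IsMulCommutative A → A ≤ Subgroup.center G) :
    commutator G ≤ Subgroup.center G := by
  set A := Subgroup.upperCentralSeries G 2 ⊓ commutator G with hA
  have hmem : ∀ y ∈ A, ∀ g : G, y * g * y⁻¹ * g⁻¹ ∈ Subgroup.center G := fun y hy g => by
    have h := (Subgroup.mem_upperCentralSeries_succ_iff (n := 1)).1 hy.1 g
    rwa [Subgroup.upperCentralSeries_one] at h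
  have hcomm : IsMulCommutative A := by
    refine Subgroup.le_centralizer_iff_isMulCommutative.1 fun y hy => ?_
    let φ : G →* Subgroup.center G := MonoidHom.mk' (fun g => ⟨y * g * y⁻¹ * g⁻¹, hmem y hy g⟩) fun g h => by
      refine Subtype.ext ?_
      show y * (g * h) * y⁻¹ * (g * h)⁻¹ = y * g * y⁻¹ * g⁻¹ * (y * h * y⁻¹ * h⁻¹)
      rw [show y * (g * h) * y⁻¹ * (g * h)⁻¹ = y * g * y⁻¹ * ((y * h * y⁻¹ * h⁻¹) * g⁻¹) by group,
        ← Subgroup.mem_center_iff.1 (hmem y hy h) g⁻¹]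
      group
    refine Subgroup.mem_centralizer_iff.2 fun x hx => ?_
    have hker : commutator G ≤ φ.ker := by
      rw [commutator_def, Subgroup.commutator_le]
      intro a _ b _
      rw [MonoidHom.mem_ker, map_commutatorElement, commutatorElement_eq_one_iff_commute]
      exact Subtype.ext (Subgroup.mem_center_iff.1 (φ b).2 _)
    have h := congrArg Subtype.val (MonoidHom.mem_ker.1 (hker hx.2))
    have h1 : y * x * y⁻¹ * x⁻¹ = 1 := h
    exact (mul_inv_eq_iff_eq_mul.1 (mul_inv_eq_one.1 h1)).symm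
  have hle := habel A inferInstance hcomm
  intro x hx
  by_contra hxc
  haveI : Group.IsNilpotent (G ⧸ Subgroup.center G) := inferInstance
  set N := (commutator G).map (QuotientGroup.mk' (Subgroup.center G)) with hN
  have hN1 : N ≠ ⊥ := fun h => by
    rw [hN, Subgroup.map_eq_bot_iff, QuotientGroup.ker_mk'] at h
    exact hxc (h hx)
  haveI : N.Normal := (inferInstance : (commutator G).Normal).map _ (QuotientGroup.mk'_surjective _)
  obtain ⟨w, hw, hw1⟩ := (show ∃ w : G ⧸ Subgroup.center G, w ∈ N ⊓ Subgroup.center _ ∧ w ≠ 1 from by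
    by_contra hcon
    push Not at hcon
    exact inf_center_ne_bot hN1 ((Subgroup.eq_bot_iff_forall _).2 hcon))
  obtain ⟨y, hy, rfl⟩ := hw.1
  refine hw1 ((QuotientGroup.eq_one_iff _).2 (hle ⟨?_, hy⟩))
  refine (Subgroup.mem_upperCentralSeries_succ_iff (n := 1)).2 fun g => ?_
  rw [Subgroup.upperCentralSeries_one, ← QuotientGroup.eq_one_iff]
  have := Subgroup.mem_center_iff.1 hw.2 (g : G ⧸ Subgroup.center G)
  simp only [QuotientGroup.mk'_apply] at this
  simp only [commutatorElement_def, QuotientGroup.mk_mul, QuotientGroup.mk_inv]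
  rw [← this]; group

variable [Fintype F]

/-- The matrix facts needed about the group. -/
theorem structure_facts (hI : ∃ I : F, I * I = -1) (R : Subgroup (GL (Fin 4) F))
    (hR : IsLinearSymplecticTypeData 2 R) :
    (∀ c : F, c ^ 4 = 1 → ∃ u ∈ R, (u : M4) = c • 1) ∧
    (∀ u ∈ R, (u : M4) * u = 1 ∨ (u : M4) * u = -1) ∧
    (∀ u ∈ R, ∀ v ∈ R, (u : M4) * v = v * u ∨ (u : M4) * v = -((v : M4) * u)) ∧
    (∀ u ∈ R, ∀ c : F, (u : M4) = c • 1 → c ^ 4 = 1) := by
  classical
  haveI : Fact (Nat.Prime 2) := ⟨Nat.prime_two⟩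
  obtain ⟨I, hI⟩ := hI
  obtain ⟨hsym, habs, _, _, -, -, hcase⟩ := hR
  have hZ : Nat.card (Subgroup.center R) = 4 := by
    rcases hcase with h | h | h
    · exact absurd h.1 (by decide)
    · exact h.2.2.1
    · have := h.2.2.1; simp at this
  haveI : Finite R := Subtype.finite
  have hexp : ∀ x : R, x ^ 4 = 1 := fun x => by
    have h := Monoid.pow_exponent_eq_one x
    rw [hsym.exponent_eq] at h
    simpa using h
  have h4 : ∀ u ∈ R, ∀ c : F, (u : M4) = c • 1 → c ^ 4 = 1 := by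
    intro u hu c hc
    have h : (u : M4) ^ 4 = 1 := by
      rw [← Units.val_pow_eq_pow_val, show u ^ 4 = 1 from congrArg Subtype.val (hexp ⟨u, hu⟩)]; rfl
    rw [hc, smul_pow, one_pow] at h
    simpa using congrFun (congrFun h 0) 0
  have hscal : ∀ z : R, z ∈ Subgroup.center R → ∃ c : F, ((z : GL (Fin 4) F) : M4) = c • 1 := fun z hz =>
    habs.2 _ (by
      rintro _ ⟨v, hv, rfl⟩
      exact congrArg Units.val (congrArg Subtype.val (Subgroup.mem_center_iff.1 hz ⟨v, hv⟩)).symm)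
  have hall : ∀ c : F, c ^ 4 = 1 → ∃ u ∈ R, (u : M4) = c • 1 := by
    intro c hc
    choose f hf using fun z : Subgroup.center R => hscal z.1 z.2
    let g : Subgroup.center R → (({1, -1, I, -I} : Finset F) : Set F) := fun z => ⟨f z, by
      simpa using eq_of_fourth hI (h4 _ z.1.2 _ (hf z))⟩
    have hg : Function.Injective g := fun a b h => by
      have e : f a = f b := congrArg Subtype.val h
      exact Subtype.ext (Subtype.ext (Units.ext (by rw [hf a, hf b, e])))
    have hb := hg.bijective_of_nat_card_le (by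
      rw [hZ, Nat.card_coe_set_eq, Set.ncard_coe_finset]; exact Finset.card_le_four)
    obtain ⟨z, hz⟩ := hb.2 ⟨c, by simpa using eq_of_fourth hI hc⟩
    exact ⟨z.1.1, z.1.2, by rw [hf z, show f z = c from congrArg Subtype.val hz]⟩
  have habel : ∀ A : Subgroup R, A.Characteristic → IsMulCommutative A → A ≤ Subgroup.center R := by
    intro A hA hAc
    haveI := hA
    have hch : (A ⊔ Subgroup.center R).Characteristic := Subgroup.characteristic_iff_map_eq.2 fun φ => by
      rw [Subgroup.map_sup, Subgroup.characteristic_iff_map_eq.1 hA φ,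
        Subgroup.characteristic_iff_map_eq.1 inferInstance φ]
    have hcomm : IsMulCommutative (A ⊔ Subgroup.center R : Subgroup R) := by
      refine Subgroup.le_centralizer_iff_isMulCommutative.1 (sup_le ?_ ?_)
      · exact Subgroup.le_centralizer_iff.1 (sup_le (Subgroup.le_centralizer_iff_isMulCommutative.2 hAc)
          (Subgroup.center_le_centralizer _))
      · exact Subgroup.center_le_centralizer _
    haveI := hsym.cyclic_of_characteristic _ hch hcomm
    have hle : Nat.card (A ⊔ Subgroup.center R : Subgroup R) ≤ 4 := by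
      rw [← IsCyclic.exponent_eq_card]
      exact Nat.le_of_dvd (by norm_num) (Monoid.exponent_dvd_of_forall_pow_eq_one fun x => Subtype.ext (hexp x))
    exact le_sup_left.trans (Subgroup.eq_of_le_of_card_ge le_sup_right (hle.trans hZ.ge)).ge
  haveI : Group.IsNilpotent R := hsym.pGroup.isNilpotent
  have hD := cent_class_two habel
  have hc : ∀ x y : R, ∃ c ∈ Subgroup.center R, x * y = c * (y * x) := fun x y =>
    ⟨x * y * x⁻¹ * y⁻¹, hD (by
      rw [commutator_def]
      exact Subgroup.commutator_mem_commutator (Subgroup.mem_top x) (Subgroup.mem_top y)), by group⟩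
  have hswap : ∀ (x y c : R), c ∈ Subgroup.center R → x * y = c * (y * x) → x * x * y = c * c * (y * (x * x)) := by
    intro x y c hc0 hxy
    have hcx : x * c = c * x := Subgroup.mem_center_iff.1 hc0 x
    calc x * x * y = x * (x * y) := mul_assoc _ _ _
      _ = x * c * (y * x) := by rw [hxy, mul_assoc]
      _ = c * (x * y * x) := by rw [hcx]; group
      _ = c * c * (y * (x * x)) := by rw [hxy]; group
  let Sq : Subgroup R := Subgroup.closure (Set.range fun x : R => x * x)
  have hSqc : IsMulCommutative Sq := by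
    refine Subgroup.le_centralizer_iff_isMulCommutative.1 ?_
    rw [Subgroup.centralizer_closure, Subgroup.closure_le]
    rintro _ ⟨x, rfl⟩
    refine Subgroup.mem_centralizer_iff.2 ?_
    rintro _ ⟨y, rfl⟩
    obtain ⟨c, hc0, hcxy⟩ := hc y x
    have h1 := hswap y x c hc0 hcxy
    have hc2 : c * c ∈ Subgroup.center R := mul_mem hc0 hc0
    show y * y * (x * x) = x * x * (y * y)
    rw [show y * y * (x * x) = y * y * x * x by group, h1,
      show c * c * (x * (y * y)) * x = c * c * x * (y * y * x) by group, h1,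
      show c * c * x * (c * c * (x * (y * y))) = c * c * (x * (c * c)) * (x * (y * y)) by group,
      Subgroup.mem_center_iff.1 hc2 x,
      show c * c * (c * c * x) * (x * (y * y)) = c * c * c * c * (x * x * (y * y)) by group,
      show c * c * c * c = c ^ 4 by simp [pow_succ], hexp, one_mul]
  have hSqch : Sq.Characteristic := Subgroup.characteristic_iff_map_eq.2 fun φ => by
    rw [MonoidHom.map_closure]
    congr 1
    ext z
    constructor
    · rintro ⟨_, ⟨x, rfl⟩, rfl⟩; exact ⟨φ x, (map_mul φ x x).symm⟩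
    · rintro ⟨x, rfl⟩; exact ⟨_, ⟨φ.symm x, rfl⟩, by simp⟩
  have hsq : ∀ x : R, x * x ∈ Subgroup.center R := fun x =>
    habel Sq hSqch hSqc (Subgroup.subset_closure ⟨x, rfl⟩)
  refine ⟨hall, fun u hu => ?_, fun u hu v hv => ?_, h4⟩
  · obtain ⟨c, hc'⟩ := hscal _ (hsq ⟨u, hu⟩)
    have h2 : c ^ 2 = 1 := by
      have h : (u : M4) ^ 4 = 1 := by
        rw [← Units.val_pow_eq_pow_val, show u ^ 4 = 1 from congrArg Subtype.val (hexp ⟨u, hu⟩)]; rfl
      have hc'' : (u : M4) * u = c • 1 := hc'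
      replace h : (u : M4) ^ (2 * 2) = 1 := h
      rw [pow_mul, pow_two (u : M4), hc'', smul_pow, one_pow] at h
      simpa using congrFun (congrFun h 0) 0
    have hc'' : (u : M4) * u = c • 1 := hc'
    rcases sq_eq_one_iff.1 h2 with rfl | rfl
    · exact Or.inl (by rw [hc'', one_smul])
    · exact Or.inr (by rw [hc'', neg_smul, one_smul])
  · obtain ⟨z, hz, hzuv⟩ := hc ⟨u, hu⟩ ⟨v, hv⟩
    obtain ⟨c, hzc⟩ := hscal z hz
    have hzz : z * z = 1 := by
      have h1 := hswap _ _ z hz hzuv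
      rw [Subgroup.mem_center_iff.1 (hsq ⟨u, hu⟩) ⟨v, hv⟩] at h1
      exact mul_eq_right.1 h1.symm
    have h2 : c ^ 2 = 1 := by
      have h : ((z : GL (Fin 4) F) : M4) * ((z : GL (Fin 4) F) : M4) = 1 := by
        rw [← Units.val_mul, ← Subgroup.coe_mul, hzz]; rfl
      rw [hzc, smul_mul_smul_comm, one_mul, ← pow_two] at h
      simpa using congrFun (congrFun h 0) 0
    have hm : (u : M4) * v = c • ((v : M4) * u) := by
      have h := congrArg (fun w : R => ((w : GL (Fin 4) F) : M4)) hzuv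
      simp only [Subgroup.coe_mul, Units.val_mul, hzc, Matrix.smul_mul, one_mul] at h
      exact h
    rcases sq_eq_one_iff.1 h2 with rfl | rfl
    · exact Or.inl (by rw [hm, one_smul])
    · exact Or.inr (by rw [hm, neg_smul, one_smul])

/-- A common fixed vector and its four translates. -/
theorem exists_frame (h2 : (2 : F) ≠ 0) (A B C D : M4) (hA : A * A = 1) (hC : C * C = 1) (hB : B * B = 1)
    (hD : D * D = 1) (hAB : A * B = -(B * A)) (hCD : C * D = -(D * C)) (hAC : A * C = C * A)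
    (hAD : A * D = D * A) (hBC : B * C = C * B) (hBD : B * D = D * B) (hA1 : A ≠ -1) :
    ∃ P : GL (Fin 4) F, A * (P : M4) = (P : M4) * pm 1 ∧ B * (P : M4) = (P : M4) * pm 2 ∧
      C * (P : M4) = (P : M4) * pm 4 ∧ D * (P : M4) = (P : M4) * pm 8 := by
  obtain ⟨w, hw⟩ : ∃ w, (1 + A) *ᵥ w ≠ 0 := by
    by_contra h
    push Not at h
    refine hA1 (eq_neg_of_add_eq_zero_right ?_)
    exact Matrix.ext_of_mulVec_single fun i => by rw [h, Matrix.zero_mulVec]
  set u := (1 + A) *ᵥ w with hu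
  have hAu : A *ᵥ u = u := by
    rw [hu, Matrix.mulVec_mulVec, mul_add, mul_one, hA, add_comm]
  obtain ⟨v, hv0, hAv, hCv⟩ : ∃ v, v ≠ 0 ∧ A *ᵥ v = v ∧ C *ᵥ v = v := by
    by_cases h : u + C *ᵥ u = 0
    · refine ⟨D *ᵥ u, fun e => hw ?_, ?_, ?_⟩
      · have := congrArg (D *ᵥ ·) e
        simp only [Matrix.mulVec_mulVec, hD, Matrix.one_mulVec, Matrix.mulVec_zero] at this
        exact this
      · rw [Matrix.mulVec_mulVec, hAD, ← Matrix.mulVec_mulVec, hAu]
      · rw [Matrix.mulVec_mulVec, hCD, Matrix.neg_mulVec, ← Matrix.mulVec_mulVec,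
          eq_neg_of_add_eq_zero_right h, Matrix.mulVec_neg, neg_neg]
    · refine ⟨_, h, ?_, ?_⟩
      · rw [Matrix.mulVec_add, hAu, Matrix.mulVec_mulVec, hAC, ← Matrix.mulVec_mulVec, hAu]
      · rw [Matrix.mulVec_add, Matrix.mulVec_mulVec u C C, hC, Matrix.one_mulVec, add_comm]
  let q : Fin 4 → (Fin 4 → F) := ![v, D *ᵥ v, B *ᵥ v, (B * D) *ᵥ v]
  have eA : A *ᵥ q 0 = q 0 ∧ A *ᵥ q 1 = q 1 ∧ A *ᵥ q 2 = -q 2 ∧ A *ᵥ q 3 = -q 3 := by
    refine ⟨hAv, ?_, ?_, ?_⟩ <;> simp only [q, Matrix.cons_val_zero, Matrix.cons_val_one, Matrix.cons_val]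
    · rw [Matrix.mulVec_mulVec, hAD, ← Matrix.mulVec_mulVec, hAv]
    · rw [Matrix.mulVec_mulVec, hAB, Matrix.neg_mulVec, ← Matrix.mulVec_mulVec, hAv]
    · rw [Matrix.mulVec_mulVec, ← mul_assoc, hAB, Matrix.neg_mul, mul_assoc, hAD, ← mul_assoc, Matrix.neg_mulVec,
        ← Matrix.mulVec_mulVec, hAv]
  have eC : C *ᵥ q 0 = q 0 ∧ C *ᵥ q 1 = -q 1 ∧ C *ᵥ q 2 = q 2 ∧ C *ᵥ q 3 = -q 3 := by
    refine ⟨hCv, ?_, ?_, ?_⟩ <;> simp only [q, Matrix.cons_val_zero, Matrix.cons_val_one, Matrix.cons_val]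
    · rw [Matrix.mulVec_mulVec, hCD, Matrix.neg_mulVec, ← Matrix.mulVec_mulVec, hCv]
    · rw [Matrix.mulVec_mulVec, ← hBC, ← Matrix.mulVec_mulVec, hCv]
    · rw [Matrix.mulVec_mulVec, ← mul_assoc, ← hBC, mul_assoc, hCD, Matrix.mul_neg, ← mul_assoc, Matrix.neg_mulVec,
        ← Matrix.mulVec_mulVec, hCv]
  have eB : B *ᵥ q 0 = q 2 ∧ B *ᵥ q 1 = q 3 ∧ B *ᵥ q 2 = q 0 ∧ B *ᵥ q 3 = q 1 := by
    refine ⟨rfl, ?_, ?_, ?_⟩ <;> simp only [q, Matrix.cons_val_zero, Matrix.cons_val_one, Matrix.cons_val]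
    · rw [Matrix.mulVec_mulVec]
    · rw [Matrix.mulVec_mulVec, hB, Matrix.one_mulVec]
    · rw [Matrix.mulVec_mulVec, ← mul_assoc, hB, one_mul]
  have eD : D *ᵥ q 0 = q 1 ∧ D *ᵥ q 1 = q 0 ∧ D *ᵥ q 2 = q 3 ∧ D *ᵥ q 3 = q 2 := by
    refine ⟨rfl, ?_, ?_, ?_⟩ <;> simp only [q, Matrix.cons_val_zero, Matrix.cons_val_one, Matrix.cons_val]
    · rw [Matrix.mulVec_mulVec, hD, Matrix.one_mulVec]
    · rw [Matrix.mulVec_mulVec, hBD]
    · rw [Matrix.mulVec_mulVec, ← mul_assoc, ← hBD, mul_assoc, hD, mul_one]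
  have hq : ∀ j, q j ≠ 0 := by
    have hB0 : ∀ x, B *ᵥ x = 0 → x = 0 := fun x hx => by
      rw [← Matrix.one_mulVec x, ← hB, ← Matrix.mulVec_mulVec, hx, Matrix.mulVec_zero]
    have hD0 : ∀ x, D *ᵥ x = 0 → x = 0 := fun x hx => by
      rw [← Matrix.one_mulVec x, ← hD, ← Matrix.mulVec_mulVec, hx, Matrix.mulVec_zero]
    intro j
    fin_cases j <;> intro hj <;> apply hv0
    · exact hj
    · exact hD0 _ hj
    · exact hB0 _ hj
    · refine hD0 _ (hB0 _ ?_)
      rw [Matrix.mulVec_mulVec]; exact hj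
  have hli : LinearIndependent F q := by
    rw [Fintype.linearIndependent_iff]
    intro g hg
    rw [Fin.sum_univ_four] at hg
    have h1 := congrArg (A *ᵥ ·) hg
    simp only [Matrix.mulVec_add, Matrix.mulVec_smul, Matrix.mulVec_zero, eA.1, eA.2.1, eA.2.2.1, eA.2.2.2] at h1
    have h2' := congrArg (C *ᵥ ·) hg
    simp only [Matrix.mulVec_add, Matrix.mulVec_smul, Matrix.mulVec_zero, eC.1, eC.2.1, eC.2.2.1, eC.2.2.2] at h2'
    have h3 := congrArg (C *ᵥ ·) h1
    simp only [Matrix.mulVec_add, Matrix.mulVec_smul, Matrix.mulVec_neg, Matrix.mulVec_zero, eC.1, eC.2.1,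
      eC.2.2.1, eC.2.2.2] at h3
    have h4 : (4 : F) ≠ 0 := by rw [show (4 : F) = 2 * 2 by norm_num]; exact mul_ne_zero h2 h2
    have key : ∀ j, (4 * g j) • q j = 0 := by
      intro j
      funext i
      have a0 := congrFun hg i
      have a1 := congrFun h1 i
      have a2 := congrFun h2' i
      have a3 := congrFun h3 i
      simp only [Pi.add_apply, Pi.smul_apply, Pi.neg_apply, Pi.zero_apply, smul_eq_mul] at a0 a1 a2 a3 ⊢
      fin_cases j <;> simp only [Fin.reduceFinMk, Fin.zero_eta, Fin.mk_one]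
      · linear_combination a0 + a1 + a2 + a3
      · linear_combination a0 + a1 - a2 - a3
      · linear_combination a0 - a1 + a2 - a3
      · linear_combination a0 - a1 - a2 + a3
    intro j
    have := (smul_eq_zero.1 (key j)).resolve_right (hq j)
    exact (mul_eq_zero.1 this).resolve_left h4
  have hu' : IsUnit (Matrix.of q)ᵀ := by
    rw [← Matrix.linearIndependent_cols_iff_isUnit]; exact hli
  refine ⟨hu'.unit, ?_, ?_, ?_, ?_⟩ <;> ext i j <;>
    simp only [IsUnit.unit_spec] <;>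
    (rw [Matrix.mul_apply, Matrix.mul_apply, Fin.sum_univ_four, Fin.sum_univ_four]
     simp only [Matrix.transpose_apply, Matrix.of_apply, pm])
  · fin_cases j
    · have h := congrFun eA.1 i
      simp [Matrix.mulVec, dotProduct, Fin.sum_univ_four] at h
      simp [zm, sgnOf, flipOf, bit, h]
    · have h := congrFun eA.2.1 i
      simp [Matrix.mulVec, dotProduct, Fin.sum_univ_four] at h
      simp [zm, sgnOf, flipOf, bit, h]
    · have h := congrFun eA.2.2.1 i
      simp [Matrix.mulVec, dotProduct, Fin.sum_univ_four] at h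
      simp [zm, sgnOf, flipOf, bit, h]
    · have h := congrFun eA.2.2.2 i
      simp [Matrix.mulVec, dotProduct, Fin.sum_univ_four] at h
      simp [zm, sgnOf, flipOf, bit, h]
  · fin_cases j
    · have h := congrFun eB.1 i
      simp [Matrix.mulVec, dotProduct, Fin.sum_univ_four] at h
      simp [zm, sgnOf, flipOf, bit, h]
    · have h := congrFun eB.2.1 i
      simp [Matrix.mulVec, dotProduct, Fin.sum_univ_four] at h
      simp [zm, sgnOf, flipOf, bit, h]
    · have h := congrFun eB.2.2.1 i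
      simp [Matrix.mulVec, dotProduct, Fin.sum_univ_four] at h
      simp [zm, sgnOf, flipOf, bit, h]
    · have h := congrFun eB.2.2.2 i
      simp [Matrix.mulVec, dotProduct, Fin.sum_univ_four] at h
      simp [zm, sgnOf, flipOf, bit, h]
  · fin_cases j
    · have h := congrFun eC.1 i
      simp [Matrix.mulVec, dotProduct, Fin.sum_univ_four] at h
      simp [zm, sgnOf, flipOf, bit, h]
    · have h := congrFun eC.2.1 i
      simp [Matrix.mulVec, dotProduct, Fin.sum_univ_four] at h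
      simp [zm, sgnOf, flipOf, bit, h]
    · have h := congrFun eC.2.2.1 i
      simp [Matrix.mulVec, dotProduct, Fin.sum_univ_four] at h
      simp [zm, sgnOf, flipOf, bit, h]
    · have h := congrFun eC.2.2.2 i
      simp [Matrix.mulVec, dotProduct, Fin.sum_univ_four] at h
      simp [zm, sgnOf, flipOf, bit, h]
  · fin_cases j
    · have h := congrFun eD.1 i
      simp [Matrix.mulVec, dotProduct, Fin.sum_univ_four] at h
      simp [zm, sgnOf, flipOf, bit, h]
    · have h := congrFun eD.2.1 i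
      simp [Matrix.mulVec, dotProduct, Fin.sum_univ_four] at h
      simp [zm, sgnOf, flipOf, bit, h]
    · have h := congrFun eD.2.2.1 i
      simp [Matrix.mulVec, dotProduct, Fin.sum_univ_four] at h
      simp [zm, sgnOf, flipOf, bit, h]
    · have h := congrFun eD.2.2.2 i
      simp [Matrix.mulVec, dotProduct, Fin.sum_univ_four] at h
      simp [zm, sgnOf, flipOf, bit, h]

theorem pm_ne_scalar {k : Fin 16} (hk : k ≠ 0) (h2 : (2 : F) ≠ 0) (c : F) : (pm k : M4) ≠ c • 1 := by
  intro h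
  have e := coord_pm (F := F) k k
  rw [if_pos rfl, h, ← pm_zero, coord_eq_trace, Matrix.mul_smul, Matrix.trace_smul, ← coord_eq_trace,
    coord_pm, if_neg hk, smul_zero] at e
  rcases mul_eq_zero.1 e.symm with h4 | h4
  · rw [show (4 : F) = 2 * 2 by norm_num] at h4; exact mul_ne_zero h2 h2 h4
  · have := cocy_sq (F := F) k k; rw [h4, mul_zero] at this; exact zero_ne_one this

theorem pm_generate (k : Fin 16) : ∃ c : F, c * c = 1 ∧
    (pm k : M4) = c • ((if bit k 0 = 1 then pm 1 else 1) * (if bit k 1 = 1 then pm 2 else 1) *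
      (if bit k 2 = 1 then pm 4 else 1) * (if bit k 3 = 1 then pm 8 else 1)) := by
  simp only [← pm_zero, ← apply_ite (pm (F := F))]
  rw [pm_mul, Matrix.smul_mul, pm_mul, Matrix.smul_mul, Matrix.smul_mul, pm_mul, smul_smul, smul_smul]
  set a := (if bit k 0 = 1 then (1 : Fin 16) else 0)
  set b := (if bit k 1 = 1 then (2 : Fin 16) else 0)
  set c := (if bit k 2 = 1 then (4 : Fin 16) else 0)
  set d := (if bit k 3 = 1 then (8 : Fin 16) else 0)
  have hk : a ^^^ b ^^^ c ^^^ d = k := decomp k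
  rw [hk]
  refine ⟨(cocy (a ^^^ b ^^^ c) d : F) * (cocy (a ^^^ b) c : F) * (cocy a b : F), ?_, ?_⟩
  · linear_combination (cocy (a ^^^ b ^^^ c) d : F) * (cocy (a ^^^ b ^^^ c) d : F) *
      ((cocy (a ^^^ b) c : F) * (cocy (a ^^^ b) c : F)) * cocy_sq (F := F) a b +
      (cocy (a ^^^ b ^^^ c) d : F) * (cocy (a ^^^ b ^^^ c) d : F) * cocy_sq (F := F) (a ^^^ b) c +
      cocy_sq (F := F) (a ^^^ b ^^^ c) d
  · rw [smul_smul]
    refine ((one_smul F (pm k : M4)).symm.trans ?_)
    congr 1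
    linear_combination (-1 : F) * (cocy_sq (F := F) (a ^^^ b ^^^ c) d) -
      (cocy (a ^^^ b ^^^ c) d : F) * (cocy (a ^^^ b ^^^ c) d : F) * cocy_sq (F := F) (a ^^^ b) c -
      (cocy (a ^^^ b ^^^ c) d : F) * (cocy (a ^^^ b ^^^ c) d : F) *
        ((cocy (a ^^^ b) c : F) * (cocy (a ^^^ b) c : F)) * cocy_sq (F := F) a b

theorem form_symm : ∀ e k : Fin 16, form e k = form k e := by decide +kernel

theorem scalar_of_comm (h2 : (2 : F) ≠ 0) {M : M4} (h : ∀ e ∈ gens, (pm e : M4) * M = M * pm e) :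
    ∃ c : F, M = c • 1 := by
  have h4 : (4 : F) ≠ 0 := by rw [show (4 : F) = 2 * 2 by norm_num]; exact mul_ne_zero h2 h2
  have hz : ∀ k : Fin 16, k ≠ 0 → coord k M = 0 := by
    intro k hk
    obtain ⟨e, he, hf⟩ : ∃ e ∈ gens, form k e = 1 := by
      by_contra hcon
      push Not at hcon
      exact hk (form_eq_zero k fun e he => ((cocy_swap k e).2.2).resolve_right (hcon e he))
    have key : Matrix.trace ((pm k : M4) * M) = -Matrix.trace ((pm k : M4) * M) := by
      have h1 : Matrix.trace ((pm e : M4) * ((pm k : M4) * M * pm e)) = (cocy e e : F) * Matrix.trace (pm k * M) := by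
        rw [Matrix.trace_mul_comm, mul_assoc, pm_sq, Matrix.mul_smul, mul_one, Matrix.trace_smul, smul_eq_mul]
      have h3 : form e k = 1 := by
        rw [form_symm, hf]
      rw [← mul_assoc, ← mul_assoc, pm_comm e k, h3, pow_one, neg_smul, one_smul, Matrix.neg_mul, Matrix.neg_mul,
        Matrix.trace_neg, mul_assoc (pm k) (pm e) M, h e he, mul_assoc, mul_assoc, pm_sq, Matrix.mul_smul,
        Matrix.mul_smul, mul_one, Matrix.trace_smul, smul_eq_mul] at h1
      have hne : (cocy e e : F) ≠ 0 := fun e0 => by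
        have := cocy_sq (F := F) e e; rw [e0, mul_zero] at this; exact zero_ne_one this
      exact mul_left_cancel₀ hne (by linear_combination (-1 : F) * h1)
    rw [coord_eq_trace]
    have : (2 : F) * Matrix.trace ((pm k : M4) * M) = 0 := by linear_combination key
    exact (mul_eq_zero.1 this).resolve_left h2
  refine ⟨coord 0 M / 4, Matrix.ext fun j i => ?_⟩
  have h := complete M i j
  rw [Finset.sum_eq_single (0 : Fin 16) (fun k _ hk => by rw [hz k hk, mul_zero])
    (fun hn => absurd (Finset.mem_univ _) hn), zm_zero] at h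
  rw [Matrix.smul_apply, Matrix.one_apply, smul_eq_mul]
  by_cases hij : i = j
  · subst hij
    rw [if_pos rfl, Int.cast_one, one_mul] at h
    rw [if_pos rfl, mul_one, h]; field_simp
  · rw [if_neg hij, Int.cast_zero, zero_mul] at h
    rw [if_neg (Ne.symm hij), mul_zero]
    exact (mul_eq_zero.1 h.symm).resolve_left h4

/-- Coordinates in which the group consists of the multiples of the sixteen matrices. -/
theorem exists_std (h2 : (2 : F) ≠ 0) (hI : ∃ I : F, I * I = -1) (R : Subgroup (GL (Fin 4) F))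
    (hR : IsLinearSymplecticTypeData 2 R) (hR6 : Nat.card R = 2 ^ 6) :
    ∃ P : GL (Fin 4) F, ∀ u : GL (Fin 4) F, P * u * P⁻¹ ∈ R ↔
      ∃ (c : F) (k : Fin 16), c ^ 4 = 1 ∧ (u : M4) = c • pm k := by
  classical
  obtain ⟨hall, hsq, hcm, h4⟩ := structure_facts hI R hR
  obtain ⟨I, hI⟩ := hI
  have hI4 : I ^ 4 = 1 := by linear_combination (I * I - 1) * hI
  let S : Set M4 := matrixSet R
  have hS : ∀ M, M ∈ S ↔ ∃ u ∈ R, (u : M4) = M := fun M => Iff.rfl
  have hmul : ∀ X Y, X ∈ S → Y ∈ S → X * Y ∈ S := by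
    rintro _ _ ⟨a, ha, rfl⟩ ⟨b, hb, rfl⟩; exact ⟨a * b, mul_mem ha hb, rfl⟩
  have hone : (1 : M4) ∈ S := ⟨1, one_mem R, rfl⟩
  have hsmul : ∀ (c : F) X, c ^ 4 = 1 → X ∈ S → c • X ∈ S := by
    intro c X hc hX
    obtain ⟨z, hz, hzc⟩ := hall c hc
    have := hmul _ X ⟨z, hz, rfl⟩ hX
    simp only [hzc, Matrix.smul_mul, one_mul] at this
    exact this
  have hcm' : ∀ X ∈ S, ∀ Y ∈ S, X * Y = Y * X ∨ X * Y = -(Y * X) := by
    rintro _ ⟨a, ha, rfl⟩ _ ⟨b, hb, rfl⟩; exact hcm a ha b hb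
  have hinv : ∀ X ∈ S, ∃ Y ∈ S, Y * Y = 1 ∧ ∃ c : F, c ≠ 0 ∧ Y = c • X := by
    rintro _ ⟨a, ha, rfl⟩
    rcases hsq a ha with h | h
    · exact ⟨_, ⟨a, ha, rfl⟩, h, 1, one_ne_zero, (one_smul _ _).symm⟩
    · refine ⟨_, hsmul I _ hI4 ⟨a, ha, rfl⟩, ?_, I, fun e => by simp [e] at hI, rfl⟩
      rw [smul_mul_smul_comm, hI, h, neg_smul, one_smul, neg_neg]
  have hscal_c : ∀ (c : F) (X Y : M4), Y = c • 1 → X * Y = Y * X := fun c X Y h => by
    rw [h, Matrix.mul_smul, Matrix.smul_mul, one_mul, mul_one]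
  have habs := hR.absIrred
  have hne0 : ∀ X ∈ S, ∀ Y : M4, X * Y = 0 → Y = 0 := by
    rintro _ ⟨a, -, rfl⟩ Y h
    calc Y = ((a⁻¹ : GL (Fin 4) F) : M4) * ((a : M4) * Y) := by rw [← mul_assoc, Units.inv_mul, one_mul]
      _ = 0 := by rw [h, mul_zero]
  have hpartner : ∀ X ∈ S, (∀ c : F, X ≠ c • 1) → ∃ Y ∈ S, Y * Y = 1 ∧ X * Y = -(Y * X) := by
    intro X hX hns
    obtain ⟨Y, hY, hXY⟩ : ∃ Y ∈ S, X * Y ≠ Y * X := by
      by_contra h
      push Not at h
      obtain ⟨c, hc⟩ := habs.2 X h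
      exact hns c hc
    obtain ⟨Z, hZ, hZ2, c, hc0, rfl⟩ := hinv Y hY
    refine ⟨_, hZ, hZ2, ?_⟩
    rw [Matrix.mul_smul, Matrix.smul_mul, (hcm' X hX Y hY).resolve_left hXY, smul_neg]
  obtain ⟨A, hA, hA2, hAns⟩ : ∃ A ∈ S, A * A = 1 ∧ ∀ c : F, A ≠ c • 1 := by
    by_contra h
    push Not at h
    have hall' : ∀ X ∈ S, ∃ c : F, X = c • 1 := by
      intro X hX
      obtain ⟨Z, hZ, hZ2, c, hc0, rfl⟩ := hinv X hX
      obtain ⟨d, hd⟩ := h _ hZ hZ2
      exact ⟨c⁻¹ * d, by rw [← smul_smul, ← hd, inv_smul_smul₀ hc0]⟩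
    rcases habs.1 (Submodule.span F {(Pi.single 0 1 : Fin 4 → F)}) (fun s hs => by
      obtain ⟨c, rfl⟩ := hall' s hs
      rw [Submodule.map_le_iff_le_comap]
      intro w hw
      simp only [Submodule.mem_comap, map_smul, Matrix.toLin'_one, LinearMap.smul_apply, LinearMap.id_coe, id_eq]
      exact Submodule.smul_mem _ c hw) with h' | h'
    · rw [Submodule.span_singleton_eq_bot] at h'
      exact (one_ne_zero : (1 : F) ≠ 0) (by simpa using congrFun h' 0)
    · have := congrArg (fun W : Submodule F (Fin 4 → F) => Module.finrank F W) h'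
      simp only [finrank_top, Module.finrank_fin_fun] at this
      rw [finrank_span_singleton (show (Pi.single 0 1 : Fin 4 → F) ≠ 0 from fun e => one_ne_zero (α := F) (by simpa using congrFun e 0))] at this
      norm_num at this
  obtain ⟨B, hB, hB2, hAB⟩ := hpartner A hA hAns
  have hBA : B * A = -(A * B) := by rw [hAB, neg_neg]
  have hmod : ∀ X ∈ S, ∃ Z ∈ ({1, A, B, A * B} : Set M4), X * Z ∈ S ∧ A * (X * Z) = X * Z * A ∧
      B * (X * Z) = X * Z * B := by
    intro X hX
    rcases hcm' A hA X hX with ha | ha <;> rcases hcm' B hB X hX with hb | hb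
    · exact ⟨1, by simp, by rw [mul_one]; exact ⟨hX, ha, hb⟩⟩
    · refine ⟨A, by simp, hmul _ _ hX hA, ?_, ?_⟩
      · rw [← mul_assoc, ha, mul_assoc, hA2]
      · rw [← mul_assoc, hb, Matrix.neg_mul, mul_assoc, hBA, Matrix.mul_neg, neg_neg, mul_assoc]
    · refine ⟨B, by simp, hmul _ _ hX hB, ?_, ?_⟩
      · rw [← mul_assoc, ha, Matrix.neg_mul, mul_assoc, hAB, Matrix.mul_neg, neg_neg, mul_assoc]
      · rw [← mul_assoc, hb, mul_assoc, hB2]
    · refine ⟨A * B, by simp, hmul _ _ hX (hmul _ _ hA hB), ?_, ?_⟩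
      · rw [← mul_assoc, ha, Matrix.neg_mul, mul_assoc, show A * (A * B) = B by rw [← mul_assoc, hA2, one_mul],
          show X * (A * B) * A = X * (A * (B * A)) by simp only [mul_assoc], hBA, Matrix.mul_neg,
          ← mul_assoc A A B, hA2, one_mul, Matrix.mul_neg]
      · rw [← mul_assoc, hb, Matrix.neg_mul, mul_assoc, ← mul_assoc B A B, hBA, Matrix.neg_mul, mul_assoc A B B,
          hB2, mul_one, Matrix.mul_neg, neg_neg, show X * (A * B) * B = X * A by
            rw [mul_assoc, mul_assoc A B B, hB2, mul_one]]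
  have hAB2 : A * B * (A * B) = -1 := by
    rw [mul_assoc, ← mul_assoc B, hBA, Matrix.neg_mul, mul_assoc A B B, hB2, mul_one, Matrix.mul_neg, hA2]
  obtain ⟨C₀, hC₀, hAC₀, hBC₀, hC₀ns⟩ : ∃ C ∈ S, A * C = C * A ∧ B * C = C * B ∧ ∀ c : F, C ≠ c • 1 := by
    by_contra hcon
    push Not at hcon
    let T : Finset M4 := (({1, -1, I, -I} : Finset F) ×ˢ ({1, A, B, A * B} : Finset M4)).image fun q => q.1 • q.2
    have hsub : ∀ u : R, ((u : GL (Fin 4) F) : M4) ∈ T := by
      intro u
      obtain ⟨Z, hZ, hXZ, hca, hcb⟩ := hmod _ ⟨u.1, u.2, rfl⟩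
      obtain ⟨c, hc⟩ := hcon _ hXZ hca hcb
      have hc4 : c ^ 4 = 1 := by
        obtain ⟨w, hw, hwc⟩ := hXZ
        exact h4 w hw c (hwc.trans hc)
      have hZ2 : ∃ d : F, d ^ 4 = 1 ∧ Z * Z = d • 1 := by
        rcases hZ with rfl | rfl | rfl | rfl
        · exact ⟨1, one_pow 4, by rw [one_smul, one_mul]⟩
        · exact ⟨1, one_pow 4, by rw [one_smul, hA2]⟩
        · exact ⟨1, one_pow 4, by rw [one_smul, hB2]⟩
        · exact ⟨-1, by norm_num, by rw [neg_smul, one_smul, hAB2]⟩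
      obtain ⟨d, hd, hdZ⟩ := hZ2
      have hd0 : d ≠ 0 := fun e => by simp [e] at hd
      have hX : ((u : GL (Fin 4) F) : M4) = (d⁻¹ * c) • Z := by
        have h := congrArg (· * Z) hc
        simp only [mul_assoc, hdZ, Matrix.mul_smul, mul_one, Matrix.smul_mul, one_mul] at h
        rw [← smul_smul, ← h, inv_smul_smul₀ hd0]
      refine Finset.mem_image.2 ⟨(d⁻¹ * c, Z), Finset.mem_product.2 ⟨?_, by simpa using hZ⟩, hX.symm⟩
      simpa using eq_of_fourth hI (show (d⁻¹ * c) ^ 4 = 1 by rw [mul_pow, inv_pow, hd, hc4, inv_one, one_mul])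
    have h64 : Nat.card R ≤ T.card := by
      rw [← Set.ncard_coe_finset, ← Nat.card_coe_set_eq]
      exact Nat.card_le_card_of_injective (fun u => ⟨_, hsub u⟩) fun a b h =>
        Subtype.ext (Units.ext (congrArg Subtype.val h :))
    have : T.card ≤ 4 * 4 := Finset.card_image_le.trans (by
      rw [Finset.card_product]; exact Nat.mul_le_mul Finset.card_le_four Finset.card_le_four)
    omega
  obtain ⟨C, hC, hC2, c₀, hc₀, rfl⟩ := hinv C₀ hC₀
  have hAC : A * (c₀ • C₀) = (c₀ • C₀) * A := by rw [Matrix.mul_smul, Matrix.smul_mul, hAC₀]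
  have hBC : B * (c₀ • C₀) = (c₀ • C₀) * B := by rw [Matrix.mul_smul, Matrix.smul_mul, hBC₀]
  have hCns : ∀ c : F, c₀ • C₀ ≠ c • 1 := fun c h => hC₀ns (c₀⁻¹ * c) (by rw [← smul_smul, ← h, inv_smul_smul₀ hc₀])
  obtain ⟨D₀, hD₀, -, hCD₀⟩ := hpartner _ hC hCns
  obtain ⟨Z, hZ, hDZ, hAD₁, hBD₁⟩ := hmod D₀ hD₀
  have hCZ : (c₀ • C₀) * Z = Z * (c₀ • C₀) := by
    rcases hZ with rfl | rfl | rfl | rfl
    · rw [mul_one, one_mul]
    · exact hAC.symm
    · exact hBC.symm
    · rw [mul_assoc A B, hBC, ← mul_assoc A, hAC, mul_assoc]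
  obtain ⟨D, hD, hD2, c₁, hc₁, rfl⟩ := hinv _ hDZ
  have hAD : A * (c₁ • (D₀ * Z)) = (c₁ • (D₀ * Z)) * A := by rw [Matrix.mul_smul, Matrix.smul_mul, hAD₁]
  have hBD : B * (c₁ • (D₀ * Z)) = (c₁ • (D₀ * Z)) * B := by rw [Matrix.mul_smul, Matrix.smul_mul, hBD₁]
  have hCD : (c₀ • C₀) * (c₁ • (D₀ * Z)) = -((c₁ • (D₀ * Z)) * (c₀ • C₀)) := by
    rw [Matrix.mul_smul, ← mul_assoc, hCD₀, Matrix.neg_mul, mul_assoc, hCZ, ← mul_assoc, smul_neg,
      ← Matrix.smul_mul]
  obtain ⟨P, pA, pB, pC, pD⟩ := exists_frame h2 A B (c₀ • C₀) (c₁ • (D₀ * Z)) hA2 hC2 hB2 hD2 hAB hCD hAC hAD hBC hBD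
    (fun e => hAns (-1) (by rw [neg_smul, one_smul]; exact e))
  refine ⟨P, ?_⟩
  have hconjM : ∀ (X N : M4), X * (P : M4) = (P : M4) * N → (P : M4) * N * ((P⁻¹ : GL (Fin 4) F) : M4) = X := fun X N h => by
    rw [← h, mul_assoc, Units.mul_inv, mul_one]
  have hgen : ∀ e ∈ gens, (P : M4) * pm e * ((P⁻¹ : GL (Fin 4) F) : M4) ∈ S := by
    intro e he
    simp only [gens, List.mem_cons, List.not_mem_nil, or_false] at he
    rcases he with rfl | rfl | rfl | rfl
    · rwa [hconjM _ _ pA]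
    · rwa [hconjM _ _ pB]
    · rwa [hconjM _ _ pC]
    · rwa [hconjM _ _ pD]
  let conjM : M4 → M4 := fun N => (P : M4) * N * ((P⁻¹ : GL (Fin 4) F) : M4)
  have hconj_mul : ∀ N N', conjM (N * N') = conjM N * conjM N' := fun N N' => by
    simp only [conjM, mul_assoc, Units.inv_mul_cancel_left]
  have hconj_one : conjM 1 = 1 := by simp only [conjM, mul_one, Units.mul_inv]
  have hpmS : ∀ k, conjM (pm k) ∈ S := by
    intro k
    obtain ⟨c, hc, he⟩ := pm_generate (F := F) k
    have h : ∀ (b : ℕ) (e : Fin 16), e ∈ gens → conjM (if bit k b = 1 then pm e else 1) ∈ S := fun b e he => by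
      split_ifs
      · exact hgen e he
      · rw [hconj_one]; exact hone
    have hs : ∀ N, conjM (c • N) = c • conjM N := fun N => by simp only [conjM, Matrix.mul_smul, Matrix.smul_mul]
    rw [he, hs]
    refine hsmul c _ (by linear_combination (c * c + 1) * hc) ?_
    rw [hconj_mul, hconj_mul, hconj_mul]
    exact hmul _ _ (hmul _ _ (hmul _ _ (h 0 1 (by simp [gens])) (h 1 2 (by simp [gens]))) (h 2 4 (by simp [gens])))
      (h 3 8 (by simp [gens]))
  intro u
  have hmemS : P * u * P⁻¹ ∈ R ↔ conjM (u : M4) ∈ S := by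
    constructor
    · intro h; exact ⟨_, h, rfl⟩
    · rintro ⟨w, hw, hwe⟩
      rwa [show P * u * P⁻¹ = w from Units.ext (by rw [Units.val_mul, Units.val_mul]; exact hwe.symm)]
  constructor
  · intro hu
    have hu' := hmemS.1 hu
    have hsign : ∀ e ∈ gens, (pm e : M4) * (u : M4) = (u : M4) * pm e ∨ (pm e : M4) * (u : M4) = -((u : M4) * pm e) := by
      intro e he
      have hcancel : ∀ N N', conjM N = conjM N' → N = N' := fun N N' h => by
        have := congrArg (fun X => ((P⁻¹ : GL (Fin 4) F) : M4) * X * (P : M4)) h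
        simpa only [conjM, mul_assoc, Units.inv_mul, mul_one, Units.inv_mul_cancel_left] using this
      rcases hcm' _ (hgen e he) _ hu' with h | h
      · left; apply hcancel; rw [hconj_mul, hconj_mul]; exact h
      · right
        apply hcancel
        rw [show conjM (-((u : M4) * pm e)) = -conjM ((u : M4) * pm e) by
          simp only [conjM, Matrix.mul_neg, Matrix.neg_mul], hconj_mul, hconj_mul]
        exact h
    let k : Fin 16 :=
      (if (pm 2 : M4) * (u : M4) = (u : M4) * pm 2 then 0 else 1) ^^^ (if (pm 1 : M4) * (u : M4) = (u : M4) * pm 1 then 0 else 2) ^^^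
      (if (pm 8 : M4) * (u : M4) = (u : M4) * pm 8 then 0 else 4) ^^^ (if (pm 4 : M4) * (u : M4) = (u : M4) * pm 4 then 0 else 8)
    have key : ∀ e ∈ gens, (pm e : M4) * ((u : M4) * pm k) = (u : M4) * pm k * pm e := by
      intro e he
      have hk : ((pm e : M4) * (u : M4) = (u : M4) * pm e → form e k = 0) ∧ (¬ (pm e : M4) * (u : M4) = (u : M4) * pm e → form e k = 1) := by
        simp only [gens, List.mem_cons, List.not_mem_nil, or_false] at he
        rcases he with rfl | rfl | rfl | rfl <;>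
          (constructor <;> intro hh <;> simp only [k] <;> split_ifs <;>
            first | decide | contradiction)
      rw [← mul_assoc]
      by_cases hh : (pm e : M4) * (u : M4) = (u : M4) * pm e
      · rw [hh, mul_assoc, mul_assoc, pm_comm e k, hk.1 hh, pow_zero, one_smul]
      · rw [(hsign e he).resolve_left hh, Matrix.neg_mul, mul_assoc, mul_assoc, pm_comm e k, hk.2 hh, pow_one,
          neg_smul, one_smul, Matrix.mul_neg, neg_neg]
    obtain ⟨c, hc⟩ := scalar_of_comm h2 key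
    refine ⟨c * (cocy k k : F), k, ?_, ?_⟩
    · have h1 : conjM ((u : M4) * pm k) ∈ S := by rw [hconj_mul]; exact hmul _ _ hu' (hpmS k)
      rw [hc, show conjM (c • (1 : M4)) = c • 1 by
        simp only [conjM, Matrix.mul_smul, Matrix.smul_mul, mul_one, Units.mul_inv]] at h1
      obtain ⟨w, hw, hwc⟩ := h1
      rw [mul_pow, h4 w hw c hwc, one_mul]
      linear_combination ((cocy k k : F) * (cocy k k : F) + 1) * cocy_sq (F := F) k k
    · have h := congrArg (· * (pm k : M4)) hc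
      simp only [mul_assoc, pm_sq, Matrix.mul_smul, mul_one, Matrix.smul_mul, one_mul] at h
      rw [mul_comm, ← smul_smul, ← h, smul_smul, cocy_sq, one_smul]
  · rintro ⟨c, k, hc, he⟩
    rw [hmemS, he, show conjM (c • (pm k : M4)) = c • conjM (pm k) by
      simp only [conjM, Matrix.mul_smul, Matrix.smul_mul]]
    exact hsmul c _ hc (hpmS k)

end Cfsg.Agent.Lib.SympFour
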